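import Cfsg.Agent.Lib.F4d12.Pure
import Cfsg.Agent.Lib.Chev.OrdF4
import Cfsg.Agent.Lib.PackMat

/-!
# The Chevalley group `F₄(2)` acting on `69888` points

`chevF4.group (ZMod 2)` acts on the coordinate module. The vector slices are a bit-sliced list of an orbit, and the
action of the root elements on the orbit is computed by the programs.
-/

set_option autoImplicit false
set_option maxRecDepth 100000
set_option linter.unusedVariables false
set_option linter.unusedSectionVars false

namespace Cfsg.Agent.Lib.F4Dat12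

open Cfsg.Lie Matrix Cfsg.Agent.Lib.TcBits Cfsg.Agent.Lib.BitClose Cfsg.Agent.Lib.CoxCert Cfsg.Agent.Lib.MaskClosure12
  Cfsg.Agent.Lib.MaskStem12 Cfsg.Agent.Lib.Chev

/-- The group. -/
abbrev Q0 : Type := ↥(chevF4.group (ZMod 2))

/-- The module. -/
abbrev V0 : Type := chevF4.Idx → ZMod 2

theorem hF0 : Full TabF4.T TabF4.X RootF4T.R chevF4 := ⟨RelF4.checks, RootF4.checks⟩

/-- The action on the module. -/
noncomputable instance actF4 : MulAction Q0 V0 where
  smul g v := (g.1 : Matrix chevF4.Idx chevF4.Idx (ZMod 2)) *ᵥ v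
  one_smul v := by
    show ((1 : Q0).1 : Matrix chevF4.Idx chevF4.Idx (ZMod 2)) *ᵥ v = v
    simp
  mul_smul g h v := by
    show ((g * h : Q0).1 : Matrix chevF4.Idx chevF4.Idx (ZMod 2)) *ᵥ v = _ *ᵥ (_ *ᵥ v)
    simp [Matrix.mulVec_mulVec]

theorem smul_def (g : Q0) (v : V0) : g • v = (g.1 : Matrix chevF4.Idx chevF4.Idx (ZMod 2)) *ᵥ v := rfl

/-- The generators. -/
noncomputable def g0 (j : ℕ) : Q0 :=
  if h : j < 48 then ⟨hF0.c.xG j 1, hF0.c.xG_mem_group h 1⟩ else 1

theorem g0_coe {j : ℕ} (h : j < 48) : ((g0 j).1 : GL chevF4.Idx (ZMod 2)) = hF0.c.xG j 1 := by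
  unfold g0
  rw [dif_pos h]

theorem g0_mat {j : ℕ} (h : j < 48) (a c : chevF4.Idx) :
    ((g0 j).1 : Matrix chevF4.Idx chevF4.Idx (ZMod 2)) a c = chevF4.xMat (ZMod 2) ⟨j, h⟩ 1 a c := by
  rw [g0_coe h, Checks.coe_xG]
  exact congrFun (congrFun (dif_pos h) a) c

theorem two_eq_zero' : (2 : ZMod 2) = 0 := by decide

theorem neg_one_eq : (-1 : ZMod 2) = 1 := by decide

theorem one_add_one' : (1 : ZMod 2) + 1 = 0 := by decide

theorem hg2 {j : ℕ} (h : j < 48) : g0 j * g0 j = 1 := by
  apply Subtype.ext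
  show ((g0 j).1 * (g0 j).1 : GL chevF4.Idx (ZMod 2)) = 1
  rw [g0_coe h, hF0.c.xG_add, one_add_one', Checks.xG_zero]

/-- `x_r(t)` in the group over the field with two elements is a generator or trivial. -/
theorem hgen : Subgroup.closure (g0 '' Set.Iio 48) = ⊤ := by
  rw [eq_top_iff]
  have ex : ∀ (r : Fin chevF4.nroots) (t : ZMod 2), chevF4.x (ZMod 2) r.1 t = chevF4.xMat (ZMod 2) r t :=
    fun r t => dif_pos r.2
  have ht : ∀ t : ZMod 2, t = 0 ∨ t = 1 := by decide
  have key : chevF4.group (ZMod 2) ≤ (Subgroup.closure (g0 '' Set.Iio 48)).map (chevF4.group (ZMod 2)).subtype := by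
    refine (Subgroup.closure_le _).mpr ?_
    rintro x ⟨r, t, hrt⟩
    have hx1 : x = hF0.c.xG r.1 t := hF0.c.eq_xG (by rw [hrt, ex])
    rcases ht t with rfl | rfl
    · rw [hx1, hF0.c.xG_zero]
      exact Subgroup.one_mem _
    · refine ⟨g0 r.1, Subgroup.subset_closure ⟨r.1, r.2, rfl⟩, ?_⟩
      show ((g0 r.1).1 : GL chevF4.Idx (ZMod 2)) = x
      rw [g0_coe r.2, hx1]
  rintro x -
  obtain ⟨y, hy, e⟩ := key x.2
  have e2 : y = x := Subtype.ext e
  rwa [← e2]

/-! ### The entries of the root elements -/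

/-- Parity of a list of extra terms. -/
def pmask : List (ℕ × ℤ × ℕ) → ℕ
  | [] => 0
  | e :: L => Bool.rec (pmask L) (Nat.xor (2 ^ e.1) (pmask L)) (Int.decEq (e.2.1 % 2) 1).decide

theorem int_cast_two (z : ℤ) : (z : ZMod 2) = if z % 2 = 1 then 1 else 0 := by
  have h0 : ((z % 2 : ℤ) : ZMod 2) = (z : ZMod 2) := by exact_mod_cast ZMod.intCast_mod z 2
  rcases Int.emod_two_eq_zero_or_one z with h | h
  · rw [if_neg (by omega), ← h0, h]
    rfl
  · rw [if_pos h, ← h0, h]
    rfl

theorem ite_add_ite_two (p q : Bool) :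
    (if p = true then (1 : ZMod 2) else 0) + (if q = true then 1 else 0) = if (p ^^ q) = true then 1 else 0 := by
  cases p <;> cases q <;> decide

theorem sumEx_pmask (L : List (ℕ × ℤ × ℕ)) (row : chevF4.Idx) :
    sumEx chevF4 L (1 : ZMod 2) row = if (pmask L).testBit (flat chevF4 row) = true then 1 else 0 := by
  induction L with
  | nil => simp [sumEx, pmask]
  | cons e L ih =>
    rw [sumEx_cons, ih]
    by_cases h : e.2.1 % 2 = 1
    · have e1 : pmask (e :: L) = Nat.xor (2 ^ e.1) (pmask L) := by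
        show (Bool.rec (pmask L) (Nat.xor (2 ^ e.1) (pmask L)) (Int.decEq (e.2.1 % 2) 1).decide : ℕ) = _
        rw [decide_eq_true h]
      rw [e1]
      have e2 : (Nat.xor (2 ^ e.1) (pmask L)).testBit (flat chevF4 row) =
          ((2 ^ e.1 : ℕ).testBit (flat chevF4 row) ^^ (pmask L).testBit (flat chevF4 row)) := Nat.testBit_xor _ _ _
      rw [e2, ← ite_add_ite_two, Nat.testBit_two_pow]
      congr 1
      by_cases h3 : flat chevF4 row = e.1
      · rw [if_pos h3, int_cast_two, if_pos h]
        simp [h3]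
      · rw [if_neg h3]
        have : ¬ e.1 = flat chevF4 row := fun h4 => h3 h4.symm
        simp [this]
    · have e1 : pmask (e :: L) = pmask L := by
        show (Bool.rec (pmask L) (Nat.xor (2 ^ e.1) (pmask L)) (Int.decEq (e.2.1 % 2) 1).decide : ℕ) = _
        rw [decide_eq_false h]
      rw [e1]
      by_cases h3 : flat chevF4 row = e.1
      · rw [if_pos h3, int_cast_two, if_neg h]
        simp
      · rw [if_neg h3, zero_add]

/-- The coordinate of a number. -/
def idx (b : ℕ) : chevF4.Idx :=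
  if h : b < 4 then Sum.inl ⟨b, h⟩ else Sum.inr ⟨(b - 4) % 48, Nat.mod_lt _ (by decide)⟩

theorem idx_flat (a : chevF4.Idx) : idx (flat chevF4 a) = a := by
  rcases a with i | s
  · have h : (i : ℕ) < 4 := i.2
    have e : flat chevF4 (Sum.inl i) = (i : ℕ) := rfl
    rw [e]
    unfold idx
    rw [dif_pos h]
  · have h : (s : ℕ) < 48 := s.2
    have e : flat chevF4 (Sum.inr s) = 4 + s := rfl
    rw [e]
    unfold idx
    rw [dif_neg (by omega)]
    congr 2
    show (4 + (s : ℕ) - 4) % 48 = s
    rw [Nat.add_sub_cancel_left, Nat.mod_eq_of_lt h]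

/-- The column, from the tables. -/
noncomputable def colT (j c : ℕ) : ℕ := Nat.xor (2 ^ c) (pmask (rawEx chevF4 j (idx c)))

/-- The rows agree with the columns. -/
noncomputable def rowChk : Bool :=
  allN 48 fun j => allN 52 fun c => wl (colT j c) fun v => allN 52 fun b =>
    Bool.rec (not ((lget (wget RL j) b).testBit c)) ((lget (wget RL j) b).testBit c) (v.testBit b)

theorem rowChk_ok : rowChk = true := by decide +kernel

/-- The entries of a root element. -/
theorem entry {j : ℕ} (hj : j < 48) (a c : chevF4.Idx) :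
    chevF4.xMat (ZMod 2) ⟨j, hj⟩ 1 a c =
      if (lget (wget RL j) (flat chevF4 a)).testBit (flat chevF4 c) = true then 1 else 0 := by
  rw [xMat_apply, sumEx_pmask]
  have h1 := allN_spec (allN_spec rowChk_ok j hj) (flat chevF4 c) (flat_lt chevF4 c)
  rw [wl_eq] at h1
  have h2 := allN_spec h1 (flat chevF4 a) (flat_lt chevF4 a)
  have h3 : (colT j (flat chevF4 c)).testBit (flat chevF4 a) =
      (lget (wget RL j) (flat chevF4 a)).testBit (flat chevF4 c) := by
    cases h4 : (colT j (flat chevF4 c)).testBit (flat chevF4 a) <;> rw [h4] at h2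
    · simpa using h2.symm
    · exact h2.symm
  rw [← h3]
  have e1 : (colT j (flat chevF4 c)).testBit (flat chevF4 a) =
      ((2 ^ flat chevF4 c : ℕ).testBit (flat chevF4 a) ^^ (pmask (rawEx chevF4 j (idx (flat chevF4 c)))).testBit (flat chevF4 a)) :=
    Nat.testBit_xor _ _ _
  rw [e1, ← ite_add_ite_two, idx_flat, Nat.testBit_two_pow]
  congr 1
  by_cases h5 : a = c
  · subst h5
    simp
  · have h6 : ¬ flat chevF4 c = flat chevF4 a := fun h => h5 (flat_injective chevF4 h).symm
    rw [if_neg h5]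
    simp [h6]

/-! ### The points -/

/-- The points of the orbit. -/
noncomputable def pt (i : ℕ) : V0 := fun a => if (lget VL (flat chevF4 a)).testBit i = true then 1 else 0

theorem flat_sum {M : Type*} [AddCommMonoid M] (g : ℕ → M) :
    ∑ a : chevF4.Idx, g (flat chevF4 a) = ∑ k ∈ Finset.range 52, g k := by
  have := Cfsg.Agent.Lib.PackMat.ccode_sum chevF4 g
  have e : Cfsg.Agent.Lib.PackMat.ccode chevF4 = flat chevF4 := by
    funext a
    cases a <;> rfl
  rw [e] at this
  exact this

theorem xorUp_bit (R m i : ℕ) :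
    (if (xorUp R m).testBit i = true then (1 : ZMod 2) else 0) =
      ∑ k ∈ Finset.range m, (if R.testBit k = true then 1 else 0) * (if (lget VL k).testBit i = true then 1 else 0) := by
  induction m with
  | zero => simp [xorUp]
  | succ m ih =>
    rw [Finset.sum_range_succ, ← ih]
    have e : xorUp R (m + 1) = Bool.rec (xorUp R m) (Nat.xor (lget VL m) (xorUp R m)) (R.testBit m) := rfl
    rw [e]
    cases h : R.testBit m
    · simp
    · have e2 : (Nat.xor (lget VL m) (xorUp R m)).testBit i =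
          ((lget VL m).testBit i ^^ (xorUp R m).testBit i) := Nat.testBit_xor _ _ _
      simp only [e2]
      rw [← ite_add_ite_two]
      simp only [if_true, one_mul]
      exact add_comm _ _

theorem eqv_all {j : ℕ} (h : j < 48) : eqvChk j = true := by
  by_cases h1 : j < 24
  · exact allN_spec eqv_ok0 j h1
  · have h2 : eqvChk (24 + (j - 24)) = true := allN_spec eqv_ok1 (j - 24) (by omega)
    rw [show 24 + (j - 24) = j by omega] at h2
    exact h2

theorem hact (j i : ℕ) (hj : j < 48) (hi : i < nP) : g0 j • pt i = pt (piP pr j i) := by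
  funext a
  rw [smul_def]
  simp only [Matrix.mulVec, dotProduct]
  have e1 : ∀ c : chevF4.Idx, ((g0 j).1 : Matrix chevF4.Idx chevF4.Idx (ZMod 2)) a c * pt i c =
      (fun k => (if (lget (wget RL j) (flat chevF4 a)).testBit k = true then (1 : ZMod 2) else 0) *
        (if (lget VL k).testBit i = true then 1 else 0)) (flat chevF4 c) := by
    intro c
    rw [g0_mat hj, entry hj]
    rfl
  rw [Finset.sum_congr rfl (fun c _ => e1 c),
    flat_sum (fun k => (if (lget (wget RL j) (flat chevF4 a)).testBit k = true then (1 : ZMod 2) else 0) *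
        (if (lget VL k).testBit i = true then 1 else 0)), ← xorUp_bit]
  have h2 := allN_spec (eqv_all hj) (flat chevF4 a) (flat_lt chevF4 a)
  rw [← Nat.eq_of_beq_eq_true h2, ap_bit']
  rfl

/-- Mask of the points different from the first one. -/
noncomputable def ptDiff (m : ℕ) : ℕ :=
  Nat.rec 0 (fun b r => Nat.lor (Nat.xor (lget VL b) (Bool.rec 0 fullM ((lget VL b).testBit 0))) r) m

theorem ptDiff_eq : ptDiff 52 = fullM - 1 := by decide +kernel

theorem ptDiff_bit {m e : ℕ} (he : e < nP) (h : (ptDiff m).testBit e = true) :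
    ∃ b, b < m ∧ (lget VL b).testBit e ≠ (lget VL b).testBit 0 := by
  induction m with
  | zero => simp [ptDiff] at h
  | succ m ih =>
    have e1 : ptDiff (m + 1) = Nat.lor (Nat.xor (lget VL m) (Bool.rec 0 fullM ((lget VL m).testBit 0))) (ptDiff m) := rfl
    rw [e1, testBit_lor', Bool.or_eq_true] at h
    rcases h with h | h
    · refine ⟨m, by omega, ?_⟩
      have e2 : (Nat.xor (lget VL m) (Bool.rec 0 fullM ((lget VL m).testBit 0))).testBit e =
          ((lget VL m).testBit e ^^ (Bool.rec 0 fullM ((lget VL m).testBit 0) : ℕ).testBit e) := Nat.testBit_xor _ _ _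
      rw [e2] at h
      cases h0 : (lget VL m).testBit 0 <;> rw [h0] at h
      · simpa using h
      · have h1 : fullM.testBit e = true := fullM_bit'' he
        have h2 : (Bool.rec 0 fullM true : ℕ) = fullM := rfl
        rw [h2, h1] at h
        simpa using h
    · obtain ⟨b, h1, h2⟩ := ih h
      exact ⟨b, by omega, h2⟩

theorem pt_eq_zero {e : ℕ} (he : e < nP) (h : pt e = pt 0) : e = 0 := by
  by_contra h0
  have h1 : (ptDiff 52).testBit e = true := by
    rw [ptDiff_eq]
    exact fullM_sub_bit.mpr ⟨Nat.pos_of_ne_zero h0, he⟩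
  obtain ⟨b, hb, h2⟩ := ptDiff_bit he h1
  have h3 := congrFun h (idx b)
  have h4 : flat chevF4 (idx b) = b := by
    unfold idx
    by_cases h5 : b < 4
    · rw [dif_pos h5]
      rfl
    · rw [dif_neg h5]
      show 4 + (b - 4) % 48 = b
      rw [Nat.mod_eq_of_lt (by omega)]
      omega
  simp only [pt, h4] at h3
  apply h2
  cases h5 : (lget VL b).testBit e <;> cases h6 : (lget VL b).testBit 0 <;> rw [h5, h6] at h3 <;>
    exact absurd h3 (by decide)

theorem pt_inj_aux : ∀ D i i', depF i = D → i < nP → i' < nP → pt i = pt i' → i = i' := by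
  intro D
  induction D using Nat.strong_induction_on with
  | _ D ih =>
    intro i i' hD hi hi' h
    by_cases h0 : i = 0
    · subst h0
      exact (pt_eq_zero hi' h.symm).symm
    · have hpos := Nat.pos_of_ne_zero h0
      obtain ⟨h1, h2⟩ := parF_spec hpos hi
      have h3 : pt (piP pr (parF i) i) = pt (piP pr (parF i) i') := by
        rw [← hact _ _ h1 hi, ← hact _ _ h1 hi', h]
      have h4 := hdep i hpos hi
      have h5 := ih (depF (piP pr (parF i) i)) (by omega) _ _ rfl (hlt _ _ hi) (hlt _ _ hi') h3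
      exact (piP pr (parF i)).injective h5

theorem pt_inj (i i' : ℕ) (hi : i < nP) (hi' : i' < nP) (h : pt i = pt i') : i = i' :=
  pt_inj_aux _ i i' rfl hi hi' h

/-- The action. -/
theorem lev : Lev (pt 0) pr (2 ^ 17) nP 48 g0 pt parF depF fF where
  hv := hv
  hinv := hinv
  hlt := hlt
  hn := by decide
  hg2 := fun j hj => hg2 hj
  hgen := hgen
  hact := fun j i hj hi => hact j i hj hi
  hinj := pt_inj
  hpt0 := rfl
  hpar := fun i h0 hi => (parF_spec h0 hi).1
  hdep := hdep
  hf := hf
  hff := hff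

/-! ### The relators -/

/-- The odd terms of the commutator formula. -/
def oddT (r s : ℕ) : List ℕ :=
  ((chevF4.commTerms r s).filter (fun c => c.2.1 % 2 == 1)).map (·.1)

/-- The table of the odd terms. -/
def tabChk : Bool :=
  (List.range 48).all fun a => (List.range 48).all fun b =>
    (wget (wwget TT a) b) == oddT a b

theorem tabChk_ok : tabChk = true := by decide +kernel

theorem tab_eq {a b : ℕ} (ha : a < 48) (hb : b < 48) : wget (wwget TT a) b = oddT a b := by
  have h := tabChk_ok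
  simp only [tabChk, List.all_eq_true, List.mem_range, beq_iff_eq] at h
  exact h a ha b hb

theorem neg_eq {a : ℕ} (ha : a < 48) : chevF4.neg a = 47 - a := by
  revert a
  decide

theorem wordG_odd (L : List (ℕ × ℤ × ℕ × ℕ)) :
    hF0.c.wordG (L.map fun c => (c.1, (c.2.1 : ZMod 2) * (-1) ^ c.2.2.1 * 1 ^ c.2.2.2)) =
      ((L.filter (fun c => c.2.1 % 2 == 1)).map (fun c => hF0.c.xG c.1 (1 : ZMod 2))).prod := by
  induction L with
  | nil => rfl
  | cons c L ih =>
    rw [List.map_cons, Checks.wordG_cons, ih, List.filter_cons]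
    have e1 : ((c.2.1 : ZMod 2) * (-1) ^ c.2.2.1 * 1 ^ c.2.2.2) = (c.2.1 : ZMod 2) := by
      rw [neg_one_eq]
      simp
    simp only [e1]
    by_cases h : c.2.1 % 2 = 1
    · have h2 : (c.2.1 % 2 == 1) = true := by simpa using h
      rw [if_pos h2, List.map_cons, List.prod_cons, int_cast_two, if_pos h]
    · have h2 : ¬ (c.2.1 % 2 == 1) = true := by simpa using h
      rw [if_neg h2, int_cast_two, if_neg h, Checks.xG_zero, one_mul]

/-- The product of a list of generators. -/
noncomputable def prodG : List ℕ → Q0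
  | [] => 1
  | j :: w => g0 j * prodG w

theorem gEv_mul_prodG (w : List ℕ) (hw : ∀ j ∈ w, j < 48) : gEv g0 w * prodG w = 1 := by
  induction w with
  | nil =>
    show (1 : Q0) * 1 = 1
    simp
  | cons j w ih =>
    have h1 := hg2 (hw j (by simp))
    have h2 := ih (fun k hk => hw k (by simp [hk]))
    show gEv g0 w * g0 j * (g0 j * prodG w) = 1
    calc gEv g0 w * g0 j * (g0 j * prodG w) = gEv g0 w * (g0 j * g0 j) * prodG w := by group
      _ = 1 := by rw [h1, mul_one, h2]

theorem oddT_lt {a b : ℕ} (ha : a < 48) (hb : b < 48) (h1 : a ≠ b) (h2 : a + b ≠ 47) : ∀ j ∈ oddT a b, j < 48 := by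
  intro j hj
  simp only [oddT, List.mem_map, List.mem_filter] at hj
  obtain ⟨c, ⟨hc, -⟩, rfl⟩ := hj
  have h3 := hF0.commTerms_spec (r := a) (s := b) ha hb (Ne.symm h1) (by
    rw [neg_eq ha]
    omega) hc
  exact h3.1

theorem coe_prodG (w : List ℕ) (hw : ∀ j ∈ w, j < 48) :
    ((prodG w).1 : GL chevF4.Idx (ZMod 2)) = (w.map fun j => hF0.c.xG j (1 : ZMod 2)).prod := by
  induction w with
  | nil => rfl
  | cons j w ih =>
    show ((g0 j).1 * (prodG w).1 : GL chevF4.Idx (ZMod 2)) = _
    rw [ih (fun k hk => hw k (by simp [hk])), g0_coe (hw j (by simp))]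
    rfl

/-- The commutator relation in the group. -/
theorem g0_comm {a b : ℕ} (ha : a < 48) (hb : b < 48) (h1 : a ≠ b) (h2 : a + b ≠ 47) :
    g0 b * g0 a = g0 a * g0 b * prodG (oddT a b) := by
  apply Subtype.ext
  show ((g0 b).1 * (g0 a).1 : GL chevF4.Idx (ZMod 2)) = (g0 a).1 * (g0 b).1 * (prodG (oddT a b)).1
  rw [coe_prodG _ (oddT_lt ha hb h1 h2), g0_coe ha, g0_coe hb]
  have h3 := hF0.xG_comm (r := a) (s := b) ha hb (Ne.symm h1) (by
    rw [neg_eq ha]
    omega) (1 : ZMod 2) 1
  have h4 : hF0.c.wordG (chevF4.commWord (ZMod 2) a b 1 1) = ((oddT a b).map fun j => hF0.c.xG j (1 : ZMod 2)).prod := by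
    unfold ChevalleyDatum.commWord
    rw [wordG_odd]
    simp only [oddT, List.map_map]
    rfl
  rw [h3, h4]

theorem g0_four {a b : ℕ} (ha : a < 48) (hb : b < 48) (h1 : a ≠ b) (h2 : a + b ≠ 47) :
    g0 b * g0 a * g0 b * g0 a = prodG (oddT a b) := by
  have h3 := g0_comm ha hb h1 h2
  have h4 := hg2 ha
  have h5 := hg2 hb
  have h7 : prodG (oddT a b) = (g0 a * g0 b)⁻¹ * (g0 b * g0 a) := by
    rw [h3]
    group
  have h8 : (g0 a * g0 b)⁻¹ = g0 b * g0 a := by
    apply inv_eq_of_mul_eq_one_right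
    calc g0 a * g0 b * (g0 b * g0 a) = g0 a * (g0 b * g0 b) * g0 a := by group
      _ = 1 := by rw [h5, mul_one, h4]
  rw [h7, h8]
  group

theorem hRel : ∀ w ∈ RelS, (∀ j ∈ w, j < 48) ∧ gEv g0 w = 1 := by
  rintro w ⟨a, b, ha, hb, h1, h2, rfl⟩
  have hT := oddT_lt ha hb h1 h2
  have e : relW a b = a :: b :: a :: b :: oddT a b := by
    unfold relW
    rw [tab_eq ha hb]
  rw [e]
  constructor
  · intro j hj
    simp only [List.mem_cons] at hj
    rcases hj with rfl | rfl | rfl | rfl | hj
    · exact ha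
    · exact hb
    · exact ha
    · exact hb
    · exact hT j hj
  · show gEv g0 (oddT a b) * g0 b * g0 a * g0 b * g0 a = 1
    have h6 := g0_four ha hb h1 h2
    have h10 := gEv_mul_prodG _ hT
    rw [← h6] at h10
    calc gEv g0 (oddT a b) * g0 b * g0 a * g0 b * g0 a = gEv g0 (oddT a b) * (g0 b * g0 a * g0 b * g0 a) := by group
      _ = 1 := h10

theorem seed_mem : relW 33 3 ∈ RelS := ⟨33, 3, by decide, by decide, by decide, by decide, rfl⟩

end Cfsg.Agent.Lib.F4Dat12
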