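import Cfsg.Agent.Lib.F4d12.Core

/-!
# Kernel checks for `F₄(2)` on `69888` points
-/

set_option autoImplicit false
set_option maxRecDepth 100000

namespace Cfsg.Agent.Lib.F4Dat12

theorem validChk_ok : validChk = true := by decide +kernel
theorem ltChk_ok : ltChk = true := by decide +kernel
theorem disjChk_ok : disjChk = true := by decide +kernel
theorem orChk_ok : orChk = true := by decide +kernel
theorem u0Chk_ok : u0Chk = true := by decide +kernel
theorem fChk_ok : fChk = true := by decide +kernel
theorem levChk_ok : allN 48 levChk = true := by decide +kernel
theorem initChk_ok : initChk = true := by decide +kernel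
theorem finalChk_ok : finalChk = true := by decide +kernel
theorem tieChk_ok : tieChk = true := by decide +kernel

end Cfsg.Agent.Lib.F4Dat12
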