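import Cfsg.Agent.Lib.F4d12.Core

/-!
# Kernel checks for `F₄(2)` on `69888` points
-/

set_option autoImplicit false
set_option maxRecDepth 100000

namespace Cfsg.Agent.Lib.F4Dat12

theorem steps_ok0 : stepsOK S0 = true := by decide +kernel
theorem steps_ok1 : stepsOK S1 = true := by decide +kernel
theorem steps_ok2 : stepsOK S2 = true := by decide +kernel
theorem steps_ok3 : stepsOK S3 = true := by decide +kernel
theorem steps_ok4 : stepsOK S4 = true := by decide +kernel
theorem steps_ok5 : stepsOK S5 = true := by decide +kernel
theorem steps_ok6 : stepsOK S6 = true := by decide +kernel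
theorem steps_ok7 : stepsOK S7 = true := by decide +kernel
theorem steps_ok8 : stepsOK S8 = true := by decide +kernel
theorem steps_ok9 : stepsOK S9 = true := by decide +kernel
theorem steps_ok10 : stepsOK S10 = true := by decide +kernel
theorem steps_ok11 : stepsOK S11 = true := by decide +kernel

end Cfsg.Agent.Lib.F4Dat12
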