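import Cfsg.Agent.Lib.F4d12.Pa
import Cfsg.Agent.Lib.F4d12.Pb
import Cfsg.Agent.Lib.F4d12.Pc
import Cfsg.Agent.Lib.F4d12.Pd
import Cfsg.Agent.Lib.F4d12.Pe
import Cfsg.Agent.Lib.F4d12.Pf
/-!
# Generated data for the Schur multiplier of `F₄(2)`
-/

set_option autoImplicit false
set_option maxRecDepth 100000

namespace Cfsg.Agent.Lib.F4Dat12

noncomputable section

def progs : List (List (Nat × Nat)) := [P0, P1, P2, P3, P4, P5, P6, P7, P8, P9, P10, P11, P12, P13, P14, P15, P16, P17, P18, P19, P20, P21, P22, P23, P24, P25, P26, P27, P28, P29, P30, P31, P32, P33, P34, P35, P36, P37, P38, P39, P40, P41, P42, P43, P44, P45, P46, P47]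

end

end Cfsg.Agent.Lib.F4Dat12
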