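import Mathlib
import Cfsg.Agent.Lib.MaskClosure12
import Cfsg.Agent.Lib.F4d12.Prog
import Cfsg.Agent.Lib.F4d12.Mask
import Cfsg.Agent.Lib.F4d12.Tab
import Cfsg.Agent.Lib.F4d12.Scr
import Cfsg.Agent.Lib.F4d12.St0
import Cfsg.Agent.Lib.F4d12.St3

/-!
# The bit programs of `F₄(2)` on `69888` points and the scripts of the deduction closure
-/

set_option autoImplicit false
set_option linter.unusedVariables false
set_option linter.unusedSectionVars false
set_option maxRecDepth 100000

namespace Cfsg.Agent.Lib.F4Dat12

open Cfsg.Agent.Lib.TcBits Cfsg.Agent.Lib.BitClose Cfsg.Agent.Lib.CoxCert Cfsg.Agent.Lib.MaskClosure12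

/-- Lookup of programs. -/
def pget : List (List (ℕ × ℕ)) → ℕ → List (ℕ × ℕ)
  | [], _ => []
  | a :: _, 0 => a
  | _ :: t, n + 1 => pget t n

/-- The programs, as a function. -/
noncomputable def pr (j : ℕ) : List (ℕ × ℕ) := pget progs j

/-- Number of points. -/
def nP : ℕ := 69888

/-- The size of the programs. -/
def NP : ℕ := 131072

/-- The full mask. -/
def fullM : ℕ := 2 ^ 69888 - 1

/-- A bounded test. -/
noncomputable def allN (n : ℕ) (p : ℕ → Bool) : Bool := Nat.rec true (fun i r => and (p i) r) n

theorem allN_spec {n : ℕ} {p : ℕ → Bool} (h : allN n p = true) : ∀ i, i < n → p i = true := by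
  induction n with
  | zero => intro i hi; omega
  | succ n ih =>
    have h1 : and (p n) (allN n p) = true := h
    rw [Bool.and_eq_true] at h1
    intro i hi
    rcases Nat.lt_succ_iff_lt_or_eq.mp hi with h2 | rfl
    · exact ih h1.2 i h2
    · exact h1.1

/-- Lookup in a table of lists. -/
def wwget : List (List (List ℕ)) → ℕ → List (List ℕ)
  | [], _ => []
  | a :: _, 0 => a
  | _ :: t, n + 1 => wwget t n

/-- A step of the script. -/
noncomputable def runS (T : List (List (List ℕ))) (Fx : List ℕ) (full : ℕ) : List (ℕ × ℕ × Bool) → List ℕ → List ℕ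
  | [], K => K
  | (a, b, sd) :: t, K => runS T Fx full t (stepCore pr Fx full sd a b (wget (wwget T a) b) K)

/-- The equality of mask lists, as a test. -/
noncomputable def runChk (T : List (List (List ℕ))) (Fx : List ℕ) (full : ℕ) (S : List (ℕ × ℕ × Bool)) (A B : List ℕ) : Bool :=
  lbeq (runS T Fx full S A) B


/-- The validity of steps of a script. -/
noncomputable def stepsOK : List (ℕ × ℕ × Bool) → Bool
  | [] => true
  | (a, b, sd) :: t =>
    and (and (Nat.blt a 48) (Nat.blt b 48)) (and (not (Nat.beq a b)) (and (not (Nat.beq (a + b) 47))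
      (and (Nat.ble (wget (wwget TT a) b).length 2)
        (and (or (not sd) (and (Nat.beq a 33) (Nat.beq b 3))) (stepsOK t)))))

/-! ### The checks of the programs -/

/-- The programs are valid. -/
noncomputable def validChk : Bool := allN 48 fun j => validProg (2 ^ 17) (pr j)

/-- Involutions, with their masks of fixed points. -/
noncomputable def invFixChk (j : ℕ) : Bool :=
  allN 17 fun b => wl (slice 17 b) fun sb => wl (progApply (pr j) sb) fun a =>
    and (Nat.beq (progApply (pr j) a) sb) (Nat.beq (Nat.land a (lget FxL j)) (Nat.land sb (lget FxL j)))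

/-- The points are preserved. -/
noncomputable def ltChk : Bool := allN 48 fun j => Nat.beq (progApply (pr j) fullM) fullM

/-- The tree masks are disjoint. -/
noncomputable def disjChk : Bool :=
  allN 48 fun j => allN j fun k => Nat.beq (Nat.land (lget IL j) (lget IL k)) 0

/-- The union of the tree masks. -/
noncomputable def orAll (m : ℕ) : ℕ := Nat.rec 0 (fun j r => Nat.lor (lget IL j) r) m

/-- The tree masks cover the points but the first one. -/
noncomputable def orChk : Bool := Nat.beq (orAll 48) (fullM - 1)

/-- The tree goes down the levels. -/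
noncomputable def levChk (j : ℕ) : Bool :=
  allN 8 fun d => wl (Nat.land (lget IL j) (lget UL (d + 1))) fun z =>
    Nat.beq (Nat.land z (progApply (pr j) (lget UL d))) z

/-- The extreme levels. -/
noncomputable def u0Chk : Bool := and (Nat.beq (lget UL 0) 1) (Nat.beq (lget UL 8) fullM)

/-- The chosen fixed points. -/
noncomputable def fChk : Bool :=
  allN 48 fun j => and (Nat.blt (lget fL j) nP) ((lget FxL j).testBit (lget fL j))

/-- The sum of the slices in a row. -/
noncomputable def xorUp (R : ℕ) (m : ℕ) : ℕ :=
  Nat.rec 0 (fun k acc => Bool.rec acc (Nat.xor (lget VL k) acc) (R.testBit k)) m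

/-- The action on the vector slices. -/
noncomputable def eqvChk (j : ℕ) : Bool :=
  allN 52 fun b => Nat.beq (progApply (pr j) (lget VL b)) (xorUp (lget (wget RL j) b) 52)

/-- The initial masks. -/
noncomputable def initChk : Bool :=
  allN 48 fun j => wl (Nat.lor (lget IL j) (2 ^ (lget fL j))) fun v =>
    Nat.beq (lget C0 j) (Nat.lor v (progApply (pr j) v))

/-- The final masks. -/
noncomputable def finalChk : Bool := allN 48 fun j => Nat.beq (lget C12 j) fullM

/-- Sum of the labels along a walk, at all points. -/
noncomputable def sumM : List ℕ → ℕ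
  | [] => 0
  | j :: w => Nat.xor (lget TL j) (progApply (pr j) (sumM w))

/-- The labels are invariant under their letters. -/
noncomputable def tieChk : Bool := allN 48 fun j => Nat.beq (progApply (pr j) (lget TL j)) (lget TL j)

/-- One relator of the cover. -/
noncomputable def relChk (a b : ℕ) : Bool :=
  or (Nat.beq a b) (or (Nat.beq (a + b) 47)
    (Nat.beq (sumM (wget (wwget TT a) b ++ [a, b, a, b])) (Bool.rec 0 fullM ((lget VV a).testBit b))))

/-- The relators of the cover for a range of the first letter. -/
noncomputable def relChkR (a0 k : ℕ) : Bool := allN k fun i => allN 48 fun b => relChk (a0 + i) b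

end Cfsg.Agent.Lib.F4Dat12
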