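import Cfsg.Agent.Lib.F4d12.Core

/-!
# Kernel checks for `F₄(2)` on `69888` points
-/

set_option autoImplicit false
set_option maxRecDepth 100000
set_option Elab.async false

namespace Cfsg.Agent.Lib.F4Dat12

theorem rel_ok0 : relChkR 0 12 = true := by decide +kernel
theorem rel_ok1 : relChkR 12 12 = true := by decide +kernel

end Cfsg.Agent.Lib.F4Dat12
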