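import Cfsg.Agent.Lib.F4d12.SpIso
import Cfsg.Agent.Lib.F4d12.Rel0
import Cfsg.Agent.Lib.F4d12.Rel1
import Cfsg.Agent.Lib.ChevPresAll
import Cfsg.Agent.Lib.ChevPresCenterCore
import Cfsg.Agent.Lib.Chev.PerfectTab
import Cfsg.Agent.Lib.CoverTau12

/-!
# The double cover of `F₄(2)`

The labels of the deduction closure define permutations of the pairs of a point and a sign, which satisfy the
relators of Steinberg's presentation modulo the change of sign.
-/

set_option autoImplicit false
set_option maxRecDepth 100000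
set_option linter.unusedVariables false
set_option linter.unusedSectionVars false

namespace Cfsg.Agent.Lib.F4Dat12

open Cfsg Cfsg.Lie Matrix Cfsg.Agent.Lib.TcBits Cfsg.Agent.Lib.BitClose Cfsg.Agent.Lib.CoxCert
  Cfsg.Agent.Lib.MaskClosure12 Cfsg.Agent.Lib.MaskStem12 Cfsg.Agent.Lib.Chev Cfsg.Agent.Lib.ChevPres
open scoped commutatorElement

/-- The pairs of a point and a sign. -/
abbrev XP : Type := Fin nP × Bool

theorem TL_len : TL.length = 48 := by decide +kernel

theorem tie_T (j x : ℕ) : (lget TL j).testBit (piP pr j x) = (lget TL j).testBit x := by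
  by_cases h : j < 48
  · have h1 := Nat.eq_of_beq_eq_true (allN_spec tieChk_ok j h)
    rw [← ap_bit', h1]
  · rw [lget_high (by rw [TL_len]; omega)]
    simp

/-- The lift of a generator. -/
noncomputable def yf (j : ℕ) (p : XP) : XP :=
  (⟨piP pr j p.1, hlt j _ p.1.2⟩, xor p.2 ((lget TL j).testBit p.1))

theorem yf_inv (j : ℕ) : Function.Involutive (yf j) := by
  rintro ⟨x, e⟩
  apply Prod.ext
  · apply Fin.ext
    exact hinv j x
  · show xor (xor e ((lget TL j).testBit x)) ((lget TL j).testBit (piP pr j x)) = e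
    rw [tie_T]
    simp

/-- The lift of a generator, as a permutation. -/
noncomputable def yh (j : ℕ) : Equiv.Perm XP := (yf_inv j).toPerm

theorem yh_apply (j : ℕ) (p : XP) : yh j p = yf j p := rfl

theorem yh_sq (j : ℕ) : yh j * yh j = 1 := by
  ext1 p
  exact yf_inv j p

theorem yh_inv (j : ℕ) : (yh j)⁻¹ = yh j := inv_eq_of_mul_eq_one_right (yh_sq j)

/-- The change of sign. -/
def tauF (p : XP) : XP := (p.1, !p.2)

theorem tauF_inv : Function.Involutive tauF := by
  rintro ⟨x, e⟩
  simp [tauF]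

/-- The change of sign, as a permutation. -/
noncomputable def tauP : Equiv.Perm XP := tauF_inv.toPerm

theorem tau_sq : tauP * tauP = 1 := by
  ext1 p
  exact tauF_inv p

theorem tau_inv : tauP⁻¹ = tauP := inv_eq_of_mul_eq_one_right tau_sq

theorem tau_order : orderOf tauP = 2 := by
  apply orderOf_eq_prime (by rw [pow_two, tau_sq])
  intro h
  have h1 : tauP (⟨0, by decide⟩, false) = (⟨0, by decide⟩, false) := by rw [h]; rfl
  have h2 : (tauF (⟨0, by decide⟩, false)).2 = false := congrArg Prod.snd h1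
  simp [tauF] at h2

theorem comm_yh (j : ℕ) : Commute (yh j) tauP := by
  ext1 p
  obtain ⟨x, e⟩ := p
  show yf j (tauF (x, e)) = tauF (yf j (x, e))
  apply Prod.ext
  · rfl
  · show xor (!e) ((lget TL j).testBit x) = !(xor e ((lget TL j).testBit x))
    simp

/-- The lift of a word, first letter first. -/
noncomputable def yW : List ℕ → Equiv.Perm XP
  | [] => 1
  | j :: w => yW w * yh j

theorem yW_append (a b : List ℕ) : yW (a ++ b) = yW b * yW a := by
  induction a with
  | nil => simp [yW]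
  | cons j a ih =>
    show yW (a ++ b) * yh j = yW b * (yW a * yh j)
    rw [ih, mul_assoc]

theorem gEv_append (a b : List ℕ) : gEv g0 (a ++ b) = gEv g0 b * gEv g0 a := by
  induction a with
  | nil => simp [gEv]
  | cons j a ih =>
    show gEv g0 (a ++ b) * g0 j = gEv g0 b * (gEv g0 a * g0 j)
    rw [ih, mul_assoc]

theorem yW_apply (w : List ℕ) (hw : ∀ j ∈ w, j < 48) (x : Fin nP) (e : Bool) :
    pt (yW w (x, e)).1 = gEv g0 w • pt x ∧ (yW w (x, e)).2 = xor e ((sumM w).testBit x) := by
  induction w generalizing x e with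
  | nil =>
    refine ⟨?_, ?_⟩
    · show pt x = (1 : Q0) • pt x
      rw [one_smul]
    · show e = xor e ((0 : ℕ).testBit x)
      simp
  | cons j w ih =>
    have hj := hw j (by simp)
    obtain ⟨h1, h2⟩ := ih (fun k hk => hw k (by simp [hk])) ⟨piP pr j x, hlt j _ x.2⟩ (xor e ((lget TL j).testBit x))
    have e0 : yW (j :: w) (x, e) = yW w (⟨piP pr j x, hlt j _ x.2⟩, xor e ((lget TL j).testBit x)) := rfl
    rw [e0]
    refine ⟨?_, ?_⟩
    · rw [h1]
      show gEv g0 w • pt (piP pr j x) = (gEv g0 w * g0 j) • pt x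
      rw [mul_smul, hact j x hj x.2]
    · rw [h2]
      have e1 : (sumM (j :: w)).testBit x = ((lget TL j).testBit x ^^ (progApply (pr j) (sumM w)).testBit x) :=
        Nat.testBit_xor _ _ _
      rw [e1, ap_bit']
      simp

theorem yW_one {w : List ℕ} (hw : ∀ j ∈ w, j < 48) (h1 : gEv g0 w = 1) (h2 : sumM w = 0) : yW w = 1 := by
  ext1 ⟨x, e⟩
  obtain ⟨h3, h4⟩ := yW_apply w hw x e
  rw [h1, one_smul] at h3
  apply Prod.ext
  · apply Fin.ext
    exact pt_inj _ _ (yW w (x, e)).1.2 x.2 h3
  · rw [h4, h2]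
    simp

theorem yW_tau {w : List ℕ} (hw : ∀ j ∈ w, j < 48) (h1 : gEv g0 w = 1) (h2 : sumM w = fullM) : yW w = tauP := by
  ext1 ⟨x, e⟩
  obtain ⟨h3, h4⟩ := yW_apply w hw x e
  rw [h1, one_smul] at h3
  apply Prod.ext
  · apply Fin.ext
    exact pt_inj _ _ (yW w (x, e)).1.2 x.2 h3
  · rw [h4, h2, fullM_bit'' x.2]
    show xor e true = !e
    simp

/-! ### The relators -/

theorem relChk_all {a b : ℕ} (ha : a < 48) (hb : b < 48) : relChk a b = true := by
  by_cases h0 : a < 12
  · have h := allN_spec (allN_spec rel_ok0 a h0) b hb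
    rwa [Nat.zero_add] at h
  by_cases h1 : a < 24
  · have h : relChk (12 + (a - 12)) b = true := allN_spec (allN_spec rel_ok1 (a - 12) (by omega)) b hb
    rwa [show 12 + (a - 12) = a by omega] at h
  by_cases h2 : a < 36
  · have h : relChk (24 + (a - 24)) b = true := allN_spec (allN_spec rel_ok2 (a - 24) (by omega)) b hb
    rwa [show 24 + (a - 24) = a by omega] at h
  · have h : relChk (36 + (a - 36)) b = true := allN_spec (allN_spec rel_ok3 (a - 36) (by omega)) b hb
    rwa [show 36 + (a - 36) = a by omega] at h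

/-- The word of a relator for the cover. -/
noncomputable def W2 (a b : ℕ) : List ℕ := oddT a b ++ [a, b, a, b]

theorem prodG_mul_gEv (w : List ℕ) (hw : ∀ j ∈ w, j < 48) : prodG w * gEv g0 w = 1 := by
  exact (mul_eq_one_comm).mp (gEv_mul_prodG w hw)

theorem gEv_W2 {a b : ℕ} (ha : a < 48) (hb : b < 48) (h1 : a ≠ b) (h2 : a + b ≠ 47) : gEv g0 (W2 a b) = 1 := by
  rw [W2, gEv_append]
  have e : gEv g0 [a, b, a, b] = g0 b * g0 a * g0 b * g0 a := by
    simp [gEv, mul_assoc]
  rw [e, g0_four ha hb h1 h2]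
  exact prodG_mul_gEv _ (oddT_lt ha hb h1 h2)

theorem W2_lt {a b : ℕ} (ha : a < 48) (hb : b < 48) (h1 : a ≠ b) (h2 : a + b ≠ 47) : ∀ j ∈ W2 a b, j < 48 := by
  intro j hj
  simp only [W2, List.mem_append, List.mem_cons, List.not_mem_nil, or_false] at hj
  rcases hj with hj | rfl | rfl | rfl | rfl
  · exact oddT_lt ha hb h1 h2 j hj
  · exact ha
  · exact hb
  · exact ha
  · exact hb

theorem sumM_W2 {a b : ℕ} (ha : a < 48) (hb : b < 48) (h1 : a ≠ b) (h2 : a + b ≠ 47) :
    sumM (W2 a b) = Bool.rec 0 fullM ((lget VV a).testBit b) := by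
  have h := relChk_all ha hb
  simp only [relChk, Bool.or_eq_true] at h
  rcases h with h | h | h
  · exact (h1 (Nat.eq_of_beq_eq_true h)).elim
  · exact (h2 (Nat.eq_of_beq_eq_true h)).elim
  · have h3 := Nat.eq_of_beq_eq_true h
    rw [tab_eq ha hb] at h3
    exact h3

theorem yW_W2 {a b : ℕ} (ha : a < 48) (hb : b < 48) (h1 : a ≠ b) (h2 : a + b ≠ 47) :
    yW (W2 a b) = 1 ∨ yW (W2 a b) = tauP := by
  have h3 := sumM_W2 ha hb h1 h2
  cases h4 : (lget VV a).testBit b with
  | false =>
    rw [h4] at h3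
    exact Or.inl (yW_one (W2_lt ha hb h1 h2) (gEv_W2 ha hb h1 h2) h3)
  | true =>
    rw [h4] at h3
    exact Or.inr (yW_tau (W2_lt ha hb h1 h2) (gEv_W2 ha hb h1 h2) h3)

/-- The four letters. -/
theorem yW_W2_eq (a b : ℕ) : yW (W2 a b) = (yh b * yh a * yh b * yh a) * yW (oddT a b) := by
  have e : yW [a, b, a, b] = yh b * yh a * yh b * yh a := by simp [yW, mul_assoc]
  rw [W2, yW_append, e]

/-! ### The values on the free group -/

/-- The letters of the free group. -/
abbrev Al : Type := Fin chevF4.nroots × ZMod 2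

/-- The values on the letters. -/
noncomputable def yy (p : Al) : Equiv.Perm XP := if p.2 = 0 then 1 else yh p.1.1

theorem zmod2_cases (t : ZMod 2) : t = 0 ∨ t = 1 := by
  revert t
  decide

/-- The value of a root element. -/
noncomputable def yc (r : ℕ) (t : ZMod 2) : Equiv.Perm XP := if t = 0 then 1 else yh r

theorem lift_stX0 {r : ℕ} (hr : r < 48) (t : ZMod 2) : FreeGroup.lift yy (chevF4.stX r t) = yc r t := by
  have hr' : r < chevF4.nroots := hr
  unfold ChevalleyDatum.stX
  rw [dif_pos hr', FreeGroup.lift_apply_of]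
  rfl

theorem lift_stWord0 (L : List (ℕ × ZMod 2)) (hL : ∀ p ∈ L, p.1 < 48) :
    FreeGroup.lift yy (chevF4.stWord L) = (L.map fun p => yc p.1 p.2).prod := by
  induction L with
  | nil => simp [ChevalleyDatum.stWord]
  | cons p L ih =>
    have h1 : chevF4.stWord (p :: L) = chevF4.stX p.1 p.2 * chevF4.stWord L := by
      simp [ChevalleyDatum.stWord]
    rw [h1, map_mul, lift_stX0 (hL p (by simp)), ih (fun q hq => hL q (by simp [hq]))]
    simp

/-- The product of the lifts. -/
noncomputable def prodY : List ℕ → Equiv.Perm XP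
  | [] => 1
  | j :: w => yh j * prodY w

theorem prodY_inv (w : List ℕ) : (prodY w)⁻¹ = yW w := by
  induction w with
  | nil => simp [prodY, yW]
  | cons j w ih =>
    show (yh j * prodY w)⁻¹ = yW w * yh j
    rw [_root_.mul_inv_rev, ih, yh_inv]

theorem coef_one (c : ℕ × ℤ × ℕ × ℕ) :
    ((c.2.1 : ZMod 2) * (-1) ^ c.2.2.1 * 1 ^ c.2.2.2) = (c.2.1 : ZMod 2) := by
  rw [neg_one_eq]
  simp

theorem prod_odd (L : List (ℕ × ℤ × ℕ × ℕ)) :
    ((L.map fun c => (c.1, (c.2.1 : ZMod 2) * (-1) ^ c.2.2.1 * 1 ^ c.2.2.2)).map fun p => yc p.1 p.2).prod =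
      prodY ((L.filter (fun c => c.2.1 % 2 == 1)).map (·.1)) := by
  induction L with
  | nil => rfl
  | cons c L ih =>
    rw [List.map_cons, List.map_cons, List.prod_cons, ih, List.filter_cons]
    simp only [coef_one]
    by_cases h : c.2.1 % 2 = 1
    · have h2 : (c.2.1 % 2 == 1) = true := by simpa using h
      rw [if_pos h2, List.map_cons]
      show yc c.1 _ * _ = yh c.1 * _
      congr 1
      rw [yc, int_cast_two, if_pos h, if_neg (by decide)]
    · have h2 : ¬ (c.2.1 % 2 == 1) = true := by simpa using h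
      rw [if_neg h2, yc, int_cast_two, if_neg h, if_pos rfl, one_mul]

theorem lift_comm_one {a b : ℕ} (ha : a < 48) (hb : b < 48) (h1 : a ≠ b) (h2 : a + b ≠ 47) :
    FreeGroup.lift yy (chevF4.stWord (chevF4.commWord (ZMod 2) a b 1 1)) = prodY (oddT a b) := by
  have hneg : b ≠ chevF4.neg a := by
    rw [neg_eq ha]
    omega
  rw [lift_stWord0 _ (fun p hp => by
    simp only [ChevalleyDatum.commWord, List.mem_map] at hp
    obtain ⟨c, hc, rfl⟩ := hp
    exact (hF0.commTerms_spec ha hb (Ne.symm h1) hneg hc).1)]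
  unfold ChevalleyDatum.commWord
  rw [prod_odd]
  rfl

theorem lift_comm_zero {a b : ℕ} (ha : a < 48) (hb : b < 48) (h1 : a ≠ b) (h2 : a + b ≠ 47) {t u : ZMod 2}
    (h0 : t = 0 ∨ u = 0) : FreeGroup.lift yy (chevF4.stWord (chevF4.commWord (ZMod 2) a b t u)) = 1 := by
  have hneg : b ≠ chevF4.neg a := by
    rw [neg_eq ha]
    omega
  rw [lift_stWord0 _ (fun p hp => by
    simp only [ChevalleyDatum.commWord, List.mem_map] at hp
    obtain ⟨c, hc, rfl⟩ := hp
    exact (hF0.commTerms_spec ha hb (Ne.symm h1) hneg hc).1)]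
  apply List.prod_eq_one
  intro x hx
  simp only [ChevalleyDatum.commWord, List.mem_map] at hx
  obtain ⟨_, ⟨c, hc, rfl⟩, rfl⟩ := hx
  obtain ⟨-, h3, h4, -⟩ := hF0.commTerms_spec ha hb (Ne.symm h1) hneg hc
  have h5 : ((c.2.1 : ZMod 2) * (-t) ^ c.2.2.1 * u ^ c.2.2.2) = 0 := by
    rcases h0 with rfl | rfl
    · simp [zero_pow (Nat.pos_iff_ne_zero.mp h3)]
    · simp [zero_pow (Nat.pos_iff_ne_zero.mp h4)]
  simp only [yc, h5, if_true]

/-- The relators take values in the powers of the change of sign. -/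
theorem hrel_all : ∀ r ∈ chevF4.steinbergRels (ZMod 2), FreeGroup.lift yy r ∈ Subgroup.zpowers tauP := by
  rintro g ((⟨r, t₁, t₂, hr, rfl⟩ | ⟨r, s, t, u, hr, hs, h1, h2, rfl⟩) | ⟨r, t₁, t₂, hr, ht₁, ht₂, rfl⟩)
  · have hr' : r < 48 := hr
    rw [map_mul, map_mul, map_inv, lift_stX0 hr', lift_stX0 hr', lift_stX0 hr']
    have e : yc r t₁ * yc r t₂ * (yc r (t₁ + t₂))⁻¹ = 1 := by
      rcases zmod2_cases t₁ with rfl | rfl <;> rcases zmod2_cases t₂ with rfl | rfl
      · simp [yc]
      · simp [yc]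
      · simp [yc]
      · have e1 : (1 : ZMod 2) + 1 = 0 := by decide
        simp only [yc, e1, if_true, inv_one, mul_one]
        rw [if_neg (by decide)]
        exact yh_sq r
    rw [e]
    exact Subgroup.one_mem _
  · have hr' : r < 48 := hr
    have hs' : s < 48 := hs
    have hne : r ≠ s := fun h => h1 h.symm
    have hsum : r + s ≠ 47 := by
      intro h
      apply h2
      rw [neg_eq hr']
      omega
    rw [map_mul, map_mul, map_mul, map_mul, map_inv, map_inv, map_inv, lift_stX0 hr', lift_stX0 hs']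
    rcases zmod2_cases t with rfl | rfl
    · rw [lift_comm_zero hr' hs' hne hsum (Or.inl rfl)]
      have : yc r 0 = 1 := by simp [yc]
      rw [this]
      simp
    · rcases zmod2_cases u with rfl | rfl
      · rw [lift_comm_zero hr' hs' hne hsum (Or.inr rfl)]
        have : yc s 0 = 1 := by simp [yc]
        rw [this]
        simp
      · rw [lift_comm_one hr' hs' hne hsum]
        have e1 : yc r 1 = yh r := by rw [yc, if_neg (by decide)]
        have e2 : yc s 1 = yh s := by rw [yc, if_neg (by decide)]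
        rw [e1, e2, yh_inv, yh_inv, prodY_inv, ← yW_W2_eq]
        rcases yW_W2 hr' hs' hne hsum with h | h <;> rw [h]
        · exact Subgroup.one_mem _
        · exact Subgroup.mem_zpowers _
  · have hr' : r < 48 := hr
    have ht : t₁ = 1 := by
      rcases zmod2_cases t₁ with h | h
      · exact (ht₁ h).elim
      · exact h
    have ht' : t₂ = 1 := by
      rcases zmod2_cases t₂ with h | h
      · exact (ht₂ h).elim
      · exact h
    subst ht ht'
    have hn : chevF4.neg r < 48 := by
      rw [neg_eq hr']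
      omega
    have e1 : chevF4.hWord r (1 : ZMod 2) = [(r, 1), (chevF4.neg r, 1), (r, 1), (r, 1), (chevF4.neg r, 1), (r, 1)] := by
      have e2 : (-(1 : ZMod 2)) = 1 := by decide
      have e3 : (-(1 : ZMod 2)⁻¹) = 1 := by rw [inv_one]; exact e2
      simp only [ChevalleyDatum.hWord, ChevalleyDatum.nWord, e2, e3, List.cons_append, List.nil_append]
    have e4 : FreeGroup.lift yy (chevF4.stH r (1 : ZMod 2)) = 1 := by
      unfold ChevalleyDatum.stH
      rw [e1, lift_stWord0 _ (by
        intro p hp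
        simp only [List.mem_cons, List.not_mem_nil, or_false] at hp
        rcases hp with rfl | rfl | rfl | rfl | rfl | rfl <;> first | exact hr' | exact hn)]
      have e5 : yc r 1 = yh r := by rw [yc, if_neg (by decide)]
      have e6 : yc (chevF4.neg r) 1 = yh (chevF4.neg r) := by rw [yc, if_neg (by decide)]
      simp only [List.map_cons, List.map_nil, List.prod_cons, List.prod_nil, mul_one, e5, e6]
      calc yh r * (yh (chevF4.neg r) * (yh r * (yh r * (yh (chevF4.neg r) * yh r))))
          = yh r * (yh (chevF4.neg r) * ((yh r * yh r) * (yh (chevF4.neg r) * yh r))) := by group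
        _ = yh r * ((yh (chevF4.neg r) * yh (chevF4.neg r)) * yh r) := by rw [yh_sq]; group
        _ = 1 := by rw [yh_sq, one_mul, yh_sq]
    rw [map_mul, map_mul, map_inv, mul_one, e4]
    simp

theorem comm_yy (p : Al) : Commute (yy p) tauP := by
  unfold yy
  split_ifs
  · exact Commute.one_left _
  · exact comm_yh _

/-! ### The presented group -/

theorem hP0 : PresOK TabF4.X chevF4 :=
  ⟨negOK_of_check hF0 ChevPresNegF4.neg_ok, ChevPresTabF4.w_ok⟩

theorem thetaG_inj : Function.Injective (thetaG (K := ZMod 2) hF0) := by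
  rw [← MonoidHom.ker_eq_bot_iff, eq_bot_iff, ker_eq_center hF0 hP0]
  intro z hz
  obtain ⟨c, -, rfl⟩ := (mem_center_iff_hbHom hF0 hP0).1 hz
  have hc : c = 1 := by
    funext i
    exact Subsingleton.elim _ _
  rw [hc, map_one]
  exact Subgroup.one_mem _

/-- The presented group is the Chevalley group. -/
noncomputable def thetaE : chevF4.SteinbergGroup (ZMod 2) ≃* Q0 :=
  MulEquiv.ofBijective (thetaG hF0) ⟨thetaG_inj, thetaG_surjective hF0⟩

/-! ### The word with value the change of sign -/

/-- A commutator of two generators in the free group. -/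
noncomputable def cW (a b : ℕ) : FreeGroup Al :=
  (chevF4.stX b (1 : ZMod 2))⁻¹ * (chevF4.stX a (1 : ZMod 2))⁻¹ * chevF4.stX b (1 : ZMod 2) * chevF4.stX a (1 : ZMod 2)

theorem cW_mem (a b : ℕ) : cW a b ∈ commutator (FreeGroup Al) := by
  have e : cW a b = ⁅(chevF4.stX b (1 : ZMod 2))⁻¹, (chevF4.stX a (1 : ZMod 2))⁻¹⁆ := by
    simp [cW, commutatorElement_def]
  rw [e, commutator_def]
  exact Subgroup.commutator_mem_commutator (Subgroup.mem_top _) (Subgroup.mem_top _)

theorem cW_mk {a b : ℕ} (ha : a < 48) (hb : b < 48) (h1 : a ≠ b) (h2 : a + b ≠ 47) :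
    PresentedGroup.mk (chevF4.steinbergRels (ZMod 2)) (cW a b) =
      PresentedGroup.mk (chevF4.steinbergRels (ZMod 2)) (chevF4.stWord (chevF4.commWord (ZMod 2) a b 1 1)) := by
  have hneg : b ≠ chevF4.neg a := by
    rw [neg_eq ha]
    omega
  have h : cW a b * (chevF4.stWord (chevF4.commWord (ZMod 2) a b 1 1))⁻¹ ∈ chevF4.steinbergRels (ZMod 2) :=
    Or.inl (Or.inr ⟨a, b, 1, 1, ha, hb, Ne.symm h1, hneg, rfl⟩)
  have h3 := PresentedGroup.one_of_mem h
  rw [map_mul, map_inv] at h3
  exact mul_inv_eq_one.mp h3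

theorem lift_cW {a b : ℕ} (ha : a < 48) (hb : b < 48) :
    FreeGroup.lift yy (cW a b) = yh b * yh a * yh b * yh a := by
  have e1 : yc a 1 = yh a := by rw [yc, if_neg (by decide)]
  have e2 : yc b 1 = yh b := by rw [yc, if_neg (by decide)]
  unfold cW
  rw [map_mul, map_mul, map_mul, map_inv, map_inv, lift_stX0 ha, lift_stX0 hb, e1, e2, yh_inv, yh_inv]

/-- The word. -/
noncomputable def wW : FreeGroup Al := cW 1 35 * (cW 3 33 * cW 0 43)⁻¹

theorem wW_mem : wW ∈ commutator (FreeGroup Al) :=
  Subgroup.mul_mem _ (cW_mem _ _) (Subgroup.inv_mem _ (Subgroup.mul_mem _ (cW_mem _ _) (cW_mem _ _)))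

theorem cw1 : chevF4.commWord (ZMod 2) 1 35 1 1 = [(7, 1), (16, 1)] := by decide +kernel

theorem cw2 : chevF4.commWord (ZMod 2) 3 33 1 1 = [(7, 1)] := by decide +kernel

theorem cw3 : chevF4.commWord (ZMod 2) 0 43 1 1 = [(16, 1)] := by decide +kernel

theorem wW_mk : PresentedGroup.mk (chevF4.steinbergRels (ZMod 2)) wW = 1 := by
  unfold wW
  rw [map_mul, map_inv, map_mul, cW_mk (by decide) (by decide) (by decide) (by decide),
    cW_mk (by decide) (by decide) (by decide) (by decide), cW_mk (by decide) (by decide) (by decide) (by decide),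
    cw1, cw2, cw3]
  simp [ChevalleyDatum.stWord]

theorem odd1 : oddT 1 35 = [7, 16] := by decide +kernel

theorem odd2 : oddT 3 33 = [7] := by decide +kernel

theorem odd3 : oddT 0 43 = [16] := by decide +kernel

theorem wW_val : FreeGroup.lift yy wW = tauP := by
  have hv1 : (lget VV 1).testBit 35 = false := by decide +kernel
  have hv2 : (lget VV 3).testBit 33 = true := by decide +kernel
  have hv3 : (lget VV 0).testBit 43 = false := by decide +kernel
  have h1 : yW (W2 1 35) = 1 := by
    have h := sumM_W2 (a := 1) (b := 35) (by decide) (by decide) (by decide) (by decide)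
    rw [hv1] at h
    exact yW_one (W2_lt (by decide) (by decide) (by decide) (by decide)) (gEv_W2 (by decide) (by decide) (by decide) (by decide)) h
  have h2 : yW (W2 3 33) = tauP := by
    have h := sumM_W2 (a := 3) (b := 33) (by decide) (by decide) (by decide) (by decide)
    rw [hv2] at h
    exact yW_tau (W2_lt (by decide) (by decide) (by decide) (by decide)) (gEv_W2 (by decide) (by decide) (by decide) (by decide)) h
  have h3 : yW (W2 0 43) = 1 := by
    have h := sumM_W2 (a := 0) (b := 43) (by decide) (by decide) (by decide) (by decide)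
    rw [hv3] at h
    exact yW_one (W2_lt (by decide) (by decide) (by decide) (by decide)) (gEv_W2 (by decide) (by decide) (by decide) (by decide)) h
  rw [yW_W2_eq, odd1] at h1
  rw [yW_W2_eq, odd2] at h2
  rw [yW_W2_eq, odd3] at h3
  have e1 : yW [7, 16] = yh 16 * yh 7 := by simp [yW]
  have e2 : yW [7] = yh 7 := by simp [yW]
  have e3 : yW [16] = yh 16 := by simp [yW]
  rw [e1] at h1
  rw [e2] at h2
  rw [e3] at h3
  unfold wW
  rw [map_mul, map_inv, map_mul, lift_cW (by decide) (by decide), lift_cW (by decide) (by decide),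
    lift_cW (by decide) (by decide)]
  set A1 := yh 35 * yh 1 * yh 35 * yh 1
  set A2 := yh 33 * yh 3 * yh 33 * yh 3
  set A3 := yh 43 * yh 0 * yh 43 * yh 0
  have e4 : A1 = yh 7 * yh 16 := by
    have h4 : A1 = (yh 16 * yh 7)⁻¹ := eq_inv_of_mul_eq_one_left h1
    rw [h4, _root_.mul_inv_rev, yh_inv, yh_inv]
  have e5 : A3 = yh 16 := by
    have h4 : A3 = (yh 16)⁻¹ := eq_inv_of_mul_eq_one_left h3
    rw [h4, yh_inv]
  have e6 : A2 = tauP * yh 7 := by
    have h4 : A2 = tauP * (yh 7)⁻¹ := eq_mul_inv_of_mul_eq h2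
    rw [h4, yh_inv]
  rw [e4, e5, e6, mul_assoc tauP, _root_.mul_inv_rev, mul_inv_cancel_left, tau_inv]

/-! ### The cover -/

theorem finite_Q0 : Finite Q0 := Nat.finite_of_card_ne_zero (by rw [card_Q0]; norm_num)

theorem perf_Q0 : commutator Q0 = ⊤ := by
  refine hF0.perfect_main (by simp) ?_
  rintro (h | h)
  · have := congrArg ChevalleyDatum.nroots h
    simp [chevF4, chevG2] at this
  · have := congrArg ChevalleyDatum.nroots h
    simp [chevF4, chevB2] at this

/-- The double cover. -/
theorem cover0 : ∃ (Γ : Type) (_ : Group Γ) (_ : Finite Γ) (σ : Γ →* chevF4.SteinbergGroup (ZMod 2)),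
    IsStemExtension σ ∧ Nonempty (σ.ker ≃* Multiplicative (ZMod 2)) := by
  haveI : Finite Q0 := finite_Q0
  haveI : Finite (chevF4.SteinbergGroup (ZMod 2)) := Finite.of_equiv _ thetaE.symm.toEquiv
  have hp : commutator (PresentedGroup (chevF4.steinbergRels (ZMod 2))) = ⊤ :=
    @perf_of_equiv _ Q0 _ (chevF4.group (ZMod 2)).toGroup thetaE perf_Q0
  exact Cfsg.Agent.Lib.CoverTau12.exists_stem (R := chevF4.steinbergRels (ZMod 2)) (n := 2) hp comm_yy hrel_all
    tau_order wW wW_mem wW_mk wW_val

end Cfsg.Agent.Lib.F4Dat12
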