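import Cfsg.Agent.Lib.F4d12.Cov
import Cfsg.Agent.Lib.ChevAut.ExoTabs
import Cfsg.Agent.Lib.ChevTransfer
import Cfsg.Agent.Lib.SchurCover46

/-!
# The Schur multiplier of `F₄(2)` has order two
-/

set_option autoImplicit false
set_option maxRecDepth 100000
set_option linter.unusedVariables false
set_option linter.unusedSectionVars false
set_option linter.style.haveILetI false

namespace Cfsg.Agent.Lib.F4Dat12

open Cfsg Cfsg.Lie Matrix Cfsg.Agent.Lib.TcBits Cfsg.Agent.Lib.BitClose Cfsg.Agent.Lib.CoxCert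
  Cfsg.Agent.Lib.MaskClosure12 Cfsg.Agent.Lib.MaskStem12 Cfsg.Agent.Lib.Chev Cfsg.Agent.Lib.ChevAut.Exotic
  Cfsg.Agent.Lib.SpBasic

universe u

/-- The image of the stabiliser under a graph automorphism contains the letters of the seed. -/
theorem g0_mem_image (α : Q0 ≃* Q0)
    (hα : ∀ (g : Q0) (r : ℕ) (t : ZMod 2), r < chevF4.nroots →
      ((g : GL chevF4.Idx (ZMod 2)) : Matrix chevF4.Idx chevF4.Idx (ZMod 2)) = chevF4.x (ZMod 2) r t →
        ((α g : GL chevF4.Idx (ZMod 2)) : Matrix chevF4.Idx chevF4.Idx (ZMod 2)) = chevF4.x (ZMod 2) (rbarF4 r) (t ^ lamF4 r))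
    {j : ℕ} (hj : j < 48) (hfx : (lget FxL (rbarF4 j)).testBit 0 = true) :
    g0 j ∈ Hb0.map (α : Q0 →* Q0) := by
  have hr : rbarF4 j < 48 := rbar_ltF4 j hj
  have h1 : g0 (rbarF4 j) ∈ Hb0 := by
    show g0 (rbarF4 j) • pt 0 = pt 0
    rw [hact _ 0 hr (by decide), fixOK _ 0 hfx]
  refine ⟨_, h1, ?_⟩
  apply Subtype.ext
  apply Units.ext
  have h2 := hα (g0 (rbarF4 j)) (rbarF4 j) 1 hr (by
    rw [g0_coe hr, Checks.coe_xG])
  rw [rbar_rbarF4 j hj, one_pow] at h2
  show ((α (g0 (rbarF4 j)) : Q0).1 : Matrix chevF4.Idx chevF4.Idx (ZMod 2)) = _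
  rw [h2, g0_coe hj, Checks.coe_xG]

/-- The automorphism of `F₄(2)`. -/
theorem aut0 : ∃ α : Q0 ≃* Q0, ∀ (g : Q0) (r : ℕ) (t : ZMod 2), r < chevF4.nroots →
      ((g : GL chevF4.Idx (ZMod 2)) : Matrix chevF4.Idx chevF4.Idx (ZMod 2)) = chevF4.x (ZMod 2) r t →
        ((α g : GL chevF4.Idx (ZMod 2)) : Matrix chevF4.Idx chevF4.Idx (ZMod 2)) = chevF4.x (ZMod 2) (rbarF4 r) (t ^ lamF4 r) :=
  exists_autF4 (K := ZMod 2) (by decide)

/-- The image of the stabiliser is a copy of the symplectic group. -/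
noncomputable def phi0 (α : Q0 ≃* Q0) : ↥(Hb0.map (α : Q0 →* Q0)) ≃* Sp (Fin 4) (ZMod 2) :=
  (@MulEquiv.subgroupMap Q0 Q0 (chevF4.group (ZMod 2)).toGroup (chevF4.group (ZMod 2)).toGroup α Hb0).symm.trans eHb

theorem hpa (α : Q0 ≃* Q0) : commutator ↥(Hb0.map (α : Q0 →* Q0)) = ⊤ :=
  perf_of_equiv (phi0 α) perf_Sp

theorem hk1a {F : Type u} [Field F] [Fintype F] (hF : Fintype.card F = 2) (α : Q0 ≃* Q0) :
    ∀ (Γ' : Type u) [Group Γ'] [Finite Γ'] (σ' : Γ' →* ↥(Hb0.map (α : Q0 →* Q0))), IsStemExtension σ' → Nat.card σ'.ker ∣ 1 :=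
  fun Γ' _ _ σ' h' => @ker_dvd_one F _ _ hF _ (Subgroup.toGroup _) (phi0 α) Γ' _ _ σ' h'

theorem hk2a {F : Type u} [Field F] [Fintype F] (hF : Fintype.card F = 2) :
    ∀ (Γ' : Type u) [Group Γ'] [Finite Γ'] (σ' : Γ' →* ↥Hb0), IsStemExtension σ' → Nat.card σ'.ker ∣ 1 :=
  fun Γ' _ _ σ' h' => @ker_dvd_one F _ _ hF _ (Subgroup.toGroup _) eHb Γ' _ _ σ' h'

/-- The upper bound. -/
theorem upper {F : Type u} [Field F] [Fintype F] (hF : Fintype.card F = 2) {Γ : Type u} [Group Γ] [Finite Γ]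
    (σ : Γ →* Q0) (hσ : IsStemExtension σ) : Nat.card σ.ker ∣ 2 := by
  obtain ⟨α, hα⟩ := aut0
  have hseed : ∀ j ∈ relW 33 3, g0 j ∈ Hb0.map (α : Q0 →* Q0) := by
    have e : relW 33 3 = [33, 3, 33, 3, 7] := by decide +kernel
    rw [e]
    have h1 : (lget FxL (rbarF4 33)).testBit 0 = true := by decide +kernel
    have h2 : (lget FxL (rbarF4 3)).testBit 0 = true := by decide +kernel
    have h3 : (lget FxL (rbarF4 7)).testBit 0 = true := by decide +kernel
    intro j hj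
    simp only [List.mem_cons, List.not_mem_nil, or_false] at hj
    rcases hj with rfl | rfl | rfl | rfl | rfl
    · exact g0_mem_image α hα (by decide) h1
    · exact g0_mem_image α hα (by decide) h2
    · exact g0_mem_image α hα (by decide) h1
    · exact g0_mem_image α hα (by decide) h2
    · exact g0_mem_image α hα (by decide) h3
  have h := card_ker_dvd_two (L := lev) hσ perf_Hb0 closure_F4 hRel seed_mem (hpa α) (hk1a hF α) hseed (hk2a hF)
  simpa using h

/-- A stem extension, transported. -/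
theorem stem_post {Γ G G' : Type*} [Group Γ] [Group G] [Group G'] (b : G ≃* G') {σ : Γ →* G}
    (h : IsStemExtension σ) : IsStemExtension (b.toMonoidHom.comp σ) ∧ (b.toMonoidHom.comp σ).ker = σ.ker := by
  have hker : (b.toMonoidHom.comp σ).ker = σ.ker := by
    ext x
    simp [MonoidHom.mem_ker]
  refine ⟨⟨b.surjective.comp h.1, ?_, ?_⟩, hker⟩
  · rw [hker]; exact h.2.1
  · rw [hker]; exact h.2.2

/-- A stem extension, transported. -/
theorem stem_pre {Γ Γ' G : Type*} [Group Γ] [Group Γ'] [Group G] (a : Γ' ≃* Γ) {σ : Γ →* G}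
    (h : IsStemExtension σ) : IsStemExtension (σ.comp a.toMonoidHom) ∧ Nonempty ((σ.comp a.toMonoidHom).ker ≃* σ.ker) := by
  have hmem : ∀ x, x ∈ (σ.comp a.toMonoidHom).ker ↔ a x ∈ σ.ker := fun x => Iff.rfl
  refine ⟨⟨h.1.comp a.surjective, ?_, ?_⟩, ⟨?_⟩⟩
  · intro x hx
    rw [Subgroup.mem_center_iff]
    intro y
    apply a.injective
    have := Subgroup.mem_center_iff.mp (h.2.1 ((hmem x).mp hx)) (a y)
    rw [map_mul, map_mul]
    exact this
  · intro x hx
    have h1 : a x ∈ commutator Γ := h.2.2 ((hmem x).mp hx)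
    have h2 : (commutator Γ').map a.toMonoidHom = commutator Γ := by
      rw [commutator_def, Subgroup.map_commutator, Subgroup.map_top_of_surjective _ a.surjective, commutator_def]
    rw [← h2] at h1
    obtain ⟨y, hy, hyx⟩ := h1
    have : y = x := a.injective hyx
    rwa [← this]
  · exact
      { toFun := fun x => ⟨a x.1, (hmem x.1).mp x.2⟩
        invFun := fun y => ⟨a.symm y.1, (hmem _).mpr (by simpa using y.2)⟩
        left_inv := fun x => Subtype.ext (by simp)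
        right_inv := fun y => Subtype.ext (by simp)
        map_mul' := fun x y => Subtype.ext (map_mul a x.1 y.1) }

/-- The main theorem. -/
theorem main {F : Type u} [Field F] [Fintype F] (hF : Fintype.card F = 2) :
    HasCyclicSchurMultiplier ↥(chevF4.group F) 2 := by
  let e : F ≃+* ZMod 2 := (ZMod.ringEquivOfPrime F Nat.prime_two hF).symm
  let E : ↥(chevF4.group F) ≃* Q0 := Cfsg.Agent.Lib.ChevTransfer.groupEquiv chevF4 e
  refine ⟨?_, ?_⟩
  · obtain ⟨Γ0, _, _, σ0, hs, ⟨hk⟩⟩ := cover0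
    let b : chevF4.SteinbergGroup (ZMod 2) ≃* ↥(chevF4.group F) := thetaE.trans E.symm
    obtain ⟨h1, h2⟩ := stem_post b hs
    let a : ULift.{u} Γ0 ≃* Γ0 := MulEquiv.ulift
    obtain ⟨h3, ⟨h4⟩⟩ := stem_pre a h1
    refine ⟨ULift.{u} Γ0, inferInstance, inferInstance, _, h3, ⟨h4.trans ((MulEquiv.subgroupCongr h2).trans hk)⟩⟩
  · intro Γ _ _ σ hσ
    obtain ⟨h1, h2⟩ := @stem_post Γ _ Q0 _ (chevF4.group F).toGroup (chevF4.group (ZMod 2)).toGroup E σ hσ
    have hd := upper hF _ h1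
    rw [h2] at hd
    let _ : CommGroup σ.ker := { (inferInstance : Group σ.ker) with
      mul_comm := fun a b => Subtype.ext (Subgroup.mem_center_iff.mp (hσ.2.1 b.2) a.1) }
    have hsq : Squarefree (Nat.card σ.ker) := by
      have : Squarefree 2 := Nat.prime_two.squarefree
      exact this.squarefree_of_dvd hd
    haveI : IsZGroup σ.ker := IsZGroup.of_squarefree hsq
    haveI : IsCyclic (Abelianization σ.ker) := inferInstance
    haveI hcy : IsCyclic σ.ker := isCyclic_of_surjective _ (Abelianization.equivOfComm (H := σ.ker)).symm.surjective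
    obtain ⟨u', hu⟩ := hcy.exists_generator
    refine Cfsg.Agent.Lib.SchurCover46.exists_surj_of_cyclic u' ?_ hu
    obtain ⟨m, hm⟩ := hd
    rw [hm, pow_mul, pow_card_eq_one', one_pow]

end Cfsg.Agent.Lib.F4Dat12
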