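import Cfsg.Agent.Lib.F4d12.Core
import Cfsg.Agent.Lib.F4d12.St1

/-!
# Kernel checks for `F₄(2)` on `69888` points
-/

set_option autoImplicit false
set_option maxRecDepth 100000
set_option Elab.async false

namespace Cfsg.Agent.Lib.F4Dat12

open Cfsg.Agent.Lib.BitClose

theorem run_ok0 : lbeq (runS TT FxL fullM S0 C0) C1 = true := by decide +kernel
theorem run_ok1 : lbeq (runS TT FxL fullM S1 C1) C2 = true := by decide +kernel
theorem run_ok2 : lbeq (runS TT FxL fullM S2 C2) C3 = true := by decide +kernel
theorem run_ok3 : lbeq (runS TT FxL fullM S3 C3) C4 = true := by decide +kernel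

end Cfsg.Agent.Lib.F4Dat12
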