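import Cfsg.Agent.Lib.F4d12.Core
import Cfsg.Agent.Lib.F4d12.St1
import Cfsg.Agent.Lib.F4d12.St2

/-!
# Kernel checks for `F₄(2)` on `69888` points
-/

set_option autoImplicit false
set_option maxRecDepth 100000
set_option Elab.async false

namespace Cfsg.Agent.Lib.F4Dat12

open Cfsg.Agent.Lib.BitClose

theorem run_ok4 : lbeq (runS TT FxL fullM S4 C4) C5 = true := by decide +kernel
theorem run_ok5 : lbeq (runS TT FxL fullM S5 C5) C6 = true := by decide +kernel
theorem run_ok6 : lbeq (runS TT FxL fullM S6 C6) C7 = true := by decide +kernel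
theorem run_ok7 : lbeq (runS TT FxL fullM S7 C7) C8 = true := by decide +kernel

end Cfsg.Agent.Lib.F4Dat12
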