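import Cfsg.Agent.Lib.F4d12.ChkA
import Cfsg.Agent.Lib.F4d12.ChkB
import Cfsg.Agent.Lib.F4d12.ChkC
import Cfsg.Agent.Lib.F4d12.ChkS
import Cfsg.Agent.Lib.F4d12.Run0
import Cfsg.Agent.Lib.F4d12.Run1
import Cfsg.Agent.Lib.F4d12.Run2
import Cfsg.Agent.Lib.MaskStem12
import Cfsg.Agent.Lib.F4d12.St1
import Cfsg.Agent.Lib.F4d12.St2

/-!
# The facts on the programs of `F₄(2)` and the deduction closure
-/

set_option autoImplicit false
set_option maxRecDepth 100000
set_option linter.unusedVariables false
set_option linter.unusedSectionVars false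

namespace Cfsg.Agent.Lib.F4Dat12

open Cfsg.Agent.Lib.TcBits Cfsg.Agent.Lib.BitClose Cfsg.Agent.Lib.CoxCert Cfsg.Agent.Lib.MaskClosure12
  Cfsg.Agent.Lib.MaskStem12

/-! ### Lists -/

theorem pget_high {L : List (List (ℕ × ℕ))} {x : ℕ} (h : L.length ≤ x) : pget L x = [] := by
  induction L generalizing x with
  | nil => rfl
  | cons a t ih =>
    cases x with
    | zero => simp at h
    | succ x =>
      exact ih (by simpa using h)

theorem lget_high {L : List ℕ} {x : ℕ} (h : L.length ≤ x) : lget L x = 0 := by
  induction L generalizing x with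
  | nil => rfl
  | cons a t ih =>
    cases x with
    | zero => simp at h
    | succ x =>
      exact ih (by simpa using h)

theorem progs_len : progs.length = 48 := by decide +kernel

theorem FxL_len : FxL.length = 48 := by decide +kernel

theorem C0_len : C0.length = 48 := by decide +kernel

theorem pr_high {j : ℕ} (h : 48 ≤ j) : pr j = [] := pget_high (by rw [progs_len]; exact h)

theorem fullM_eq : fullM = 2 ^ nP - 1 := by decide +kernel

theorem fullM_bit {i : ℕ} : fullM.testBit i = decide (i < nP) := by
  have key : ∀ (m k : ℕ), m = 2 ^ k - 1 → m.testBit i = decide (i < k) := by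
    intro m k h
    subst h
    exact Nat.testBit_two_pow_sub_one _ _
  exact key fullM nP fullM_eq

theorem fullM_bit' {i : ℕ} (h : fullM.testBit i = true) : i < nP := by
  rw [fullM_bit] at h
  simpa using h

theorem fullM_bit'' {i : ℕ} (h : i < nP) : fullM.testBit i = true := by
  rw [fullM_bit]
  simpa using h

theorem fullM_sub : fullM - 1 = 2 * (2 ^ 69887 - 1) := by decide +kernel

theorem two_mul_bit (n i : ℕ) : (2 * (2 ^ n - 1)).testBit i = true ↔ 0 < i ∧ i < n + 1 := by
  cases i with
  | zero => simp
  | succ i =>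
    have e : (2 * (2 ^ n - 1)).testBit (i + 1) = (2 ^ n - 1).testBit i := by
      rw [Nat.testBit_succ, Nat.mul_div_cancel_left _ (by norm_num)]
    rw [e, Nat.testBit_two_pow_sub_one]
    simp

theorem fullM_sub_bit {i : ℕ} : (fullM - 1).testBit i = true ↔ 0 < i ∧ i < nP := by
  rw [fullM_sub]
  exact two_mul_bit _ _

/-! ### The programs -/

theorem hv (x : ℕ) : validProg (2 ^ 17) (pr x) = true := by
  by_cases h : x < 48
  · exact allN_spec validChk_ok x h
  · rw [pr_high (not_lt.mp h)]
    rfl

theorem invFix_all {j : ℕ} (h : j < 48) : invFixChk j = true := by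
  by_cases h1 : j < 24
  · exact allN_spec invFix_ok0 j h1
  · have h2 : invFixChk (24 + (j - 24)) = true := allN_spec invFix_ok1 (j - 24) (by omega)
    rw [show 24 + (j - 24) = j by omega] at h2
    exact h2

theorem hinv (x i : ℕ) : piP pr x (piP pr x i) = i := by
  by_cases h : x < 48
  · have h1 := allN_spec (invFix_all h)
    have h2 : wordPerm pr [x, x] = 1 := by
      refine wordPerm_eq_one 17 pr [x, x] (fun a _ => hv a) ?_
      intro b hb
      have h3 := h1 b hb
      rw [wl_eq, wl_eq, Bool.and_eq_true] at h3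
      exact Nat.eq_of_beq_eq_true h3.1
    have h3 : wordPerm pr [x, x] i = i := by rw [h2]; rfl
    simpa [wordPerm, Equiv.Perm.mul_apply] using h3
  · have e : piP pr x = 1 := by
      show progPerm (pr x) = 1
      rw [pr_high (not_lt.mp h)]
      rfl
    rw [e]
    rfl

theorem ap_bit' (x X i : ℕ) : (progApply (pr x) X).testBit i = X.testBit (piP pr x i) :=
  testBit_progApply _ (pr x) (hv x) X i

theorem fixOK : FixOK pr FxL := by
  intro x i hi
  by_cases h : x < 48
  · by_cases hi2 : 2 ^ 17 ≤ i
    · exact progPerm_fix_high _ _ (hv x) i hi2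
    · have hi' : i < 2 ^ 17 := by omega
      have himg : piP pr x i < 2 ^ 17 := by
        by_contra hc
        have h1 := progPerm_fix_high _ _ (hv x) (piP pr x i) (by omega)
        have h2 := (piP pr x).injective h1
        omega
      have h1 := allN_spec (invFix_all h)
      apply Nat.eq_of_testBit_eq
      intro b
      by_cases hb : b < 17
      · have h3 := h1 b hb
        rw [wl_eq, wl_eq, Bool.and_eq_true] at h3
        have h4 := Nat.eq_of_beq_eq_true h3.2
        have h5 : (Nat.land (progApply (pr x) (slice 17 b)) (lget FxL x)).testBit i =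
            (Nat.land (slice 17 b) (lget FxL x)).testBit i := by rw [h4]
        rw [testBit_land', testBit_land', hi, Bool.and_true, Bool.and_true, ap_bit', testBit_slice, testBit_slice] at h5
        have h6 : (decide (piP pr x i < 2 ^ 17) && (piP pr x i).testBit b) = (decide (i < 2 ^ 17) && i.testBit b) := h5
        rw [decide_eq_true himg, decide_eq_true hi', Bool.true_and, Bool.true_and] at h6
        exact h6
      · have hk : 2 ^ 17 ≤ 2 ^ b := Nat.pow_le_pow_right (by norm_num) (by omega)
        rw [Nat.testBit_lt_two_pow (lt_of_lt_of_le himg hk), Nat.testBit_lt_two_pow (lt_of_lt_of_le hi' hk)]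
  · rw [lget_high (by rw [FxL_len]; omega)] at hi
    simp at hi

theorem hlt (x i : ℕ) (hi : i < nP) : piP pr x i < nP := by
  by_cases h : x < 48
  · have h1 := Nat.eq_of_beq_eq_true (allN_spec ltChk_ok x h)
    have h2 := ap_bit' x fullM i
    rw [h1, fullM_bit'' hi] at h2
    exact fullM_bit' h2.symm
  · have e : piP pr x = 1 := by
      show progPerm (pr x) = 1
      rw [pr_high (not_lt.mp h)]
      rfl
    rw [e]
    exact hi

/-! ### The tree -/

theorem orAll_bit (m i : ℕ) : (orAll m).testBit i = true ↔ ∃ j, j < m ∧ (lget IL j).testBit i = true := by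
  induction m with
  | zero => simp [orAll]
  | succ m ih =>
    have e : orAll (m + 1) = Nat.lor (lget IL m) (orAll m) := rfl
    rw [e, testBit_lor', Bool.or_eq_true, ih]
    constructor
    · rintro (h | ⟨j, h1, h2⟩)
      · exact ⟨m, by omega, h⟩
      · exact ⟨j, by omega, h2⟩
    · rintro ⟨j, h1, h2⟩
      rcases Nat.lt_succ_iff_lt_or_eq.mp h1 with h3 | rfl
      · exact Or.inr ⟨j, h3, h2⟩
      · exact Or.inl h2

theorem orChk_eq : orAll 48 = fullM - 1 := by decide +kernel

theorem IL_exists {i : ℕ} (h0 : 0 < i) (hi : i < nP) : ∃ j, j < 48 ∧ (lget IL j).testBit i = true := by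
  rw [← orAll_bit, orChk_eq]
  exact fullM_sub_bit.mpr ⟨h0, hi⟩

theorem IL_range {j i : ℕ} (hj : j < 48) (h : (lget IL j).testBit i = true) : 0 < i ∧ i < nP := by
  rw [← fullM_sub_bit, ← orChk_eq, orAll_bit]
  exact ⟨j, hj, h⟩

theorem IL_disj {j k i : ℕ} (hj : j < 48) (hk : k < 48) (h1 : (lget IL j).testBit i = true)
    (h2 : (lget IL k).testBit i = true) : j = k := by
  have key : ∀ {j k : ℕ}, j < 48 → k < j → (lget IL j).testBit i = true → (lget IL k).testBit i = true → False := by
    intro j k hj hk h1 h2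
    have h3 := Nat.eq_of_beq_eq_true (allN_spec (allN_spec disjChk_ok j hj) k hk)
    have h4 : (Nat.land (lget IL j) (lget IL k)).testBit i = true := by
      rw [testBit_land', h1, h2]; rfl
    rw [h3] at h4
    simp at h4
  rcases Nat.lt_trichotomy j k with h | h | h
  · exact (key hk h h2 h1).elim
  · exact h
  · exact (key hj h h1 h2).elim

open Classical in
/-- The letter of the tree at a point. -/
noncomputable def parF (i : ℕ) : ℕ :=
  if h : ∃ j, j < 48 ∧ (lget IL j).testBit i = true then Classical.choose h else 0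

theorem parF_spec {i : ℕ} (h0 : 0 < i) (hi : i < nP) : parF i < 48 ∧ (lget IL (parF i)).testBit i = true := by
  have h := IL_exists h0 hi
  unfold parF
  rw [dif_pos h]
  exact Classical.choose_spec h

theorem parF_eq {j i : ℕ} (hj : j < 48) (h : (lget IL j).testBit i = true) : parF i = j := by
  obtain ⟨h0, hi⟩ := IL_range hj h
  obtain ⟨h1, h2⟩ := parF_spec h0 hi
  exact IL_disj h1 hj h2 h

/-- The level of a point. -/
noncomputable def depF (i : ℕ) : ℕ := sInf {d | (lget UL d).testBit i = true}

theorem UL8 : lget UL 8 = fullM := by decide +kernel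

theorem UL0 : lget UL 0 = 1 := by decide +kernel

theorem depF_mem {i : ℕ} (hi : i < nP) : (lget UL (depF i)).testBit i = true := by
  have h : {d | (lget UL d).testBit i = true}.Nonempty := ⟨8, by
    show (lget UL 8).testBit i = true
    rw [UL8]
    exact fullM_bit'' hi⟩
  exact Nat.sInf_mem h

theorem depF_le {i d : ℕ} (h : (lget UL d).testBit i = true) : depF i ≤ d := Nat.sInf_le h

theorem hdep (i : ℕ) (h0 : 0 < i) (hi : i < nP) : depF (piP pr (parF i) i) < depF i := by
  obtain ⟨h1, h2⟩ := parF_spec h0 hi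
  have h3 := depF_mem hi
  have h4 : depF i ≤ 8 := depF_le (by rw [UL8]; exact fullM_bit'' hi)
  have h5 : depF i ≠ 0 := by
    intro h
    rw [h, UL0] at h3
    cases i with
    | zero => omega
    | succ i =>
      simp [Nat.testBit_succ] at h3
  obtain ⟨d, hd⟩ := Nat.exists_eq_succ_of_ne_zero h5
  have h6 := allN_spec levChk_ok (parF i) h1
  have h7 := allN_spec h6 d (by omega)
  rw [wl_eq] at h7
  have h8 := Nat.eq_of_beq_eq_true h7
  have h9 : (Nat.land (lget IL (parF i)) (lget UL (d + 1))).testBit i = true := by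
    rw [testBit_land', h2]
    rw [hd] at h3
    rw [show d + 1 = Nat.succ d from rfl, h3]
    rfl
  rw [← h8, testBit_land', Bool.and_eq_true, ap_bit'] at h9
  have h10 := depF_le h9.2
  omega

/-- The fixed point of a letter. -/
noncomputable def fF (j : ℕ) : ℕ := lget fL j

theorem hf (j : ℕ) (hj : j < 48) : fF j < nP := by
  have h := allN_spec fChk_ok j hj
  rw [Bool.and_eq_true] at h
  exact Nat.le_of_ble_eq_true h.1

theorem hff (j : ℕ) (hj : j < 48) : piP pr j (fF j) = fF j := by
  have h := allN_spec fChk_ok j hj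
  rw [Bool.and_eq_true] at h
  exact fixOK j _ h.2

/-! ### The closure -/

/-- A relator. -/
noncomputable def relW (a b : ℕ) : List ℕ := a :: b :: a :: b :: wget (wwget TT a) b

/-- The relators. -/
def RelS : Set (List ℕ) := {w | ∃ a b, a < 48 ∧ b < 48 ∧ a ≠ b ∧ a + b ≠ 47 ∧ w = relW a b}

section clos

variable {B : Type*} [CommGroup B] {C : Subgroup B} {ℓ : ℕ → ℕ → B}

theorem runS_inv (hS : LSys pr (2 ^ 17) nP ℓ)
    (hrel : ∀ w ∈ RelS, ∃ κ, ∀ x, x < nP → walkP pr ℓ w x = κ)
    (hseed : ∃ κ ∈ C, ∀ x, x < nP → walkP pr ℓ (relW 33 3) x = κ)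
    (S : List (ℕ × ℕ × Bool)) (hok : stepsOK S = true) {K : List ℕ} (hK : Inv C ℓ K) :
    Inv C ℓ (runS TT FxL fullM S K) := by
  induction S generalizing K with
  | nil => exact hK
  | cons st S ih =>
    obtain ⟨a, b, sd⟩ := st
    simp only [stepsOK, Bool.and_eq_true, Bool.or_eq_true, Bool.not_eq_true'] at hok
    obtain ⟨⟨h1, h2⟩, h3, h4, h5, h6, h7⟩ := hok
    refine ih h7 ?_
    have ha : a < 48 := Nat.le_of_ble_eq_true h1
    have hb : b < 48 := Nat.le_of_ble_eq_true h2
    have hab : a ≠ b := by
      intro h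
      rw [h] at h3
      simp at h3
    have hab2 : a + b ≠ 47 := by
      intro h
      rw [h] at h4
      simp at h4
    have hlen : (wget (wwget TT a) b).length ≤ 2 := Nat.le_of_ble_eq_true h5
    cases sd with
    | true =>
      rcases h6 with h6 | h6
      · simp at h6
      · have e1 := Nat.eq_of_beq_eq_true h6.1
        have e2 := Nat.eq_of_beq_eq_true h6.2
        subst e1 e2
        obtain ⟨κ, hκ, hκw⟩ := hseed
        exact stepCore_inv hS fixOK hlen (fun _ => hκ) (fun y hy => fullM_bit' hy) hκw hK
    | false =>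
      obtain ⟨κ, hκw⟩ := hrel _ ⟨a, b, ha, hb, hab, hab2, rfl⟩
      exact stepCore_inv hS fixOK hlen (fun h => by simp at h) (fun y hy => fullM_bit' hy) hκw hK

theorem init_inv (hS : LSys pr (2 ^ 17) nP ℓ) (htree : ∀ i, 0 < i → i < nP → ℓ (parF i) i ∈ C)
    (hnorm : ∀ j, j < 48 → ℓ j (fF j) ∈ C) : Inv C ℓ C0 := by
  intro x i hi
  by_cases hx : x < 48
  · have h1 := allN_spec initChk_ok x hx
    rw [wl_eq] at h1
    have h2 := Nat.eq_of_beq_eq_true h1
    have key : ∀ i', (Nat.lor (lget IL x) (2 ^ (lget fL x))).testBit i' = true → ℓ x i' ∈ C := by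
      intro i' h
      rw [testBit_lor', Bool.or_eq_true] at h
      rcases h with h | h
      · have e := parF_eq hx h
        obtain ⟨h3, h4⟩ := IL_range hx h
        have := htree i' h3 h4
        rwa [e] at this
      · rw [Nat.testBit_two_pow] at h
        have e : lget fL x = i' := by simpa using h
        rw [← e]
        exact hnorm x hx
    rw [h2, testBit_lor', Bool.or_eq_true, ap_bit'] at hi
    rcases hi with h | h
    · exact key _ h
    · exact tie_mem hS (key _ h)
  · rw [lget_high (by rw [C0_len]; omega)] at hi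
    simp at hi

/-- The deduction closure. -/
theorem closure_F4 : ClosureOK B pr (2 ^ 17) nP 48 parF fF RelS (relW 33 3) := by
  intro C ℓ hS htree hnorm hrel hseed
  have h0 := init_inv hS htree hnorm
  have step : ∀ {S A A'}, stepsOK S = true → lbeq (runS TT FxL fullM S A) A' = true → Inv C ℓ A → Inv C ℓ A' := by
    intro S A A' hok h hA
    rw [← eq_of_lbeq h]
    exact runS_inv hS hrel hseed S hok hA
  have h1 := step steps_ok0 run_ok0 h0
  have h2 := step steps_ok1 run_ok1 h1
  have h3 := step steps_ok2 run_ok2 h2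
  have h4 := step steps_ok3 run_ok3 h3
  have h5 := step steps_ok4 run_ok4 h4
  have h6 := step steps_ok5 run_ok5 h5
  have h7 := step steps_ok6 run_ok6 h6
  have h8 := step steps_ok7 run_ok7 h7
  have h9 := step steps_ok8 run_ok8 h8
  have h10 := step steps_ok9 run_ok9 h9
  have h11 := step steps_ok10 run_ok10 h10
  have h12 := step steps_ok11 run_ok11 h11
  intro j i hj hi
  refine h12 j i ?_
  rw [Nat.eq_of_beq_eq_true (allN_spec finalChk_ok j hj)]
  exact fullM_bit'' hi

end clos

end Cfsg.Agent.Lib.F4Dat12
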