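import Cfsg.Agent.Lib.F4d12.Act
import Cfsg.Agent.Lib.SpOrder
import Cfsg.Agent.Lib.SpPerfect
import Cfsg.Agent.Lib.SpCenter
import Cfsg.Agent.Lib.SpSect

/-!
# The stabiliser of a point of the orbit of `69888` vectors of `F₄(2)` is `Sp₈(2)`
-/

set_option autoImplicit false
set_option maxRecDepth 100000
set_option linter.unusedVariables false
set_option linter.unusedSectionVars false
set_option linter.style.haveILetI false

namespace Cfsg.Agent.Lib.F4Dat12

open Cfsg Cfsg.Lie Matrix Cfsg.Agent.Lib.TcBits Cfsg.Agent.Lib.BitClose Cfsg.Agent.Lib.CoxCert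
  Cfsg.Agent.Lib.MaskClosure12 Cfsg.Agent.Lib.MaskStem12 Cfsg.Agent.Lib.Chev Cfsg.Agent.Lib.SpBasic

universe u

/-- The generators of the stabiliser. -/
def GensL : List ℕ := [27, 24, 5, 43, 15, 44]

/-- The parents of the vectors. -/
def par8 : List ℕ := [0, 0, 66, 11, 36, 13, 102, 15, 10, 1, 74, 9, 44, 15, 110, 11, 17, 25, 82, 83, 52, 53, 118, 119, 26, 27, 90, 91, 60, 61, 126, 127, 160, 41, 162, 163, 164, 5, 166, 167, 170, 171, 46, 47, 174, 13, 172, 173, 49, 57, 178, 179, 180, 181, 182, 183, 186, 187, 62, 63, 190, 191, 188, 189, 96, 73, 102, 3, 100, 101, 38, 39, 74, 75, 110, 11, 108, 109, 46, 47, 81, 89, 118, 119, 116, 117, 54, 55, 90, 91, 126, 127, 124, 125, 62, 63, 224, 105, 226, 227, 228, 229, 230, 7, 234, 73, 232, 99, 238, 239, 236, 15, 113, 121, 242, 243, 244, 245, 246, 247, 250, 251, 123, 115, 254, 255, 252, 253, 136, 153, 138, 195, 140, 165, 142, 231, 138, 139, 202, 131, 172, 133, 238, 135, 152, 153, 154, 155, 156, 157, 158,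 159, 154, 155, 218, 219, 188, 189, 254, 255, 168, 33, 178, 171, 172, 37, 182, 175, 184, 43, 162, 175, 188, 165, 166, 45, 184, 185, 179, 171, 188, 189, 183, 175, 58, 59, 178, 179, 189, 165, 182, 183, 200, 225, 202, 231, 212, 205, 166, 207, 216, 203, 218, 195, 196, 237, 198, 175, 216, 217, 218, 219, 213, 205, 182, 183, 218, 219, 219, 195, 212, 213, 214, 215, 232, 97, 242, 235, 244, 237, 238, 103, 248, 225, 226, 105, 228, 111, 254, 231, 248, 249, 243, 235, 245, 237, 254, 255, 249, 225, 242, 243, 244, 245, 255, 231]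

/-- The letters of the tree of vectors. -/
def gen8 : List ℕ := [0, 0, 15, 43, 15, 43, 15, 43, 5, 43, 15, 5, 15, 5, 15, 24, 27, 43, 15, 15, 15, 15, 15, 15, 5, 5, 15, 15, 15, 15, 15, 15, 5, 43, 5, 5, 5, 15, 5, 5, 5, 5, 24, 24, 5, 15, 5, 5, 27, 43, 5, 5, 5, 5, 5, 5, 5, 5, 24, 24, 5, 5, 5, 5, 24, 43, 24, 15, 24, 24, 15, 15, 5, 5, 24, 15, 24, 24, 15, 15, 27, 43, 24, 24, 24, 24, 15, 15, 5, 5, 24, 24, 24, 24, 15, 15, 5, 43, 5, 5, 5, 5, 5, 15, 5, 24, 5, 43, 5, 5, 5, 15, 27, 43, 5, 5, 5, 5, 5, 5, 5, 5, 27, 43, 5, 5, 5, 5, 44, 43, 44, 15, 44, 15, 44, 15, 5, 5, 15, 44, 15, 44, 15, 44, 44, 44, 44, 44, 44, 44, 44, 44, 5, 5, 15, 15, 15, 15, 15, 15, 44, 5, 43, 44, 44, 5, 43, 44, 43, 5, 44, 24, 43, 44, 44, 5, 44, 44, 27, 43, 44, 44, 27, 43, 5, 5, 44, 44, 27, 43, 44, 44, 44, 24, 44, 24, 43, 44, 15, 44, 43, 5, 43, 44, 44, 24, 44, 15, 44, 44, 44, 44, 27, 43, 15, 15, 5, 5, 27, 43, 44, 44, 44, 44, 44, 5, 43, 44, 43, 44, 44, 5, 43, 44, 44, 5, 44, 5, 43, 44,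 44, 44, 27, 43, 27, 43, 44, 44, 27, 43, 44, 44, 44, 44, 27, 43]

/-- The levels of the vectors. -/
def dep8 : List ℕ := [0, 0, 13, 3, 13, 5, 12, 4, 13, 1, 12, 2, 12, 4, 11, 3, 13, 12, 12, 11, 12, 11, 11, 10, 12, 11, 11, 10, 11, 10, 10, 9, 15, 9, 11, 9, 12, 6, 10, 8, 12, 8, 12, 10, 11, 5, 11, 9, 12, 11, 10, 9, 11, 10, 9, 8, 11, 10, 11, 10, 10, 9, 10, 9, 13, 5, 12, 4, 10, 8, 11, 9, 12, 4, 11, 3, 11, 9, 12, 10, 12, 11, 11, 10, 9, 8, 10, 9, 11, 10, 10, 9, 10, 9, 11, 10, 12, 6, 10, 8, 9, 7, 11, 5, 11, 5, 11, 9, 10, 8, 10, 4, 11, 10, 9, 8, 8, 7, 10, 9, 10, 9, 10, 9, 9, 8, 9, 8, 13, 11, 12, 8, 12, 8, 11, 7, 12, 10, 11, 9, 11, 9, 10, 8, 12, 11, 11, 10, 11, 10, 10, 9, 11, 10, 10, 9, 10, 9, 9, 8, 14, 10, 10, 8, 11, 7, 9, 7, 13, 11, 11, 7, 10, 8, 10, 6, 13, 12, 9, 8, 10, 9, 8, 7, 12, 11, 10, 9, 9, 8, 9, 8, 12, 8, 11, 7, 9, 7, 10, 8, 11, 9, 10, 8, 10, 6, 11, 7, 11, 10, 10, 9, 8, 7, 9, 8, 10, 9, 9, 8, 9, 8, 10, 9, 11, 7, 9, 7, 8, 6, 10, 6, 10, 8, 10,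 6, 9, 5, 9, 7, 10, 9, 8, 7, 7, 6, 9, 8, 9, 8, 9, 8, 8, 7, 8, 7]

/-- The eight coordinates. -/
abbrev I8 : Type := Fin 4 ⊕ Fin 4

/-- The matrices of size eight. -/
abbrev M8 : Type := Matrix I8 I8 (ZMod 2)

/-- The list of the coordinates of the section. -/
def bsL : List ℕ := [31, 32, 33, 48, 24, 23, 22, 7]

/-- The number of the coordinates of `Sp₈(2)`. -/
def code8 : I8 → ℕ
  | Sum.inl k => k.1
  | Sum.inr k => 4 + k.1

/-- The coordinate of the section. -/
def bsIdx (a : I8) : ℕ := bsL.getD (code8 a) 0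

/-- The embedding of the coordinates of the section. -/
def iota (a : I8) : chevF4.Idx := idx (bsIdx a)

/-- The fixed vector. -/
def v1 : chevF4.Idx := idx 1

theorem iota_inj : Function.Injective iota := by
  have h : ∀ a b : I8, iota a = iota b → a = b := by decide
  exact fun a b => h a b

theorem iota_ne : ∀ a : I8, iota a ≠ v1 := by decide

theorem flat_iota : ∀ a : I8, flat chevF4 (iota a) = bsIdx a := by decide

theorem flat_v1 : flat chevF4 v1 = 1 := by decide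

theorem v1_eq : ∀ k : chevF4.Idx, flat chevF4 k = 1 → k = v1 := by
  intro k hk
  have := idx_flat k
  rw [hk] at this
  exact this.symm

theorem range_of_mem {k : chevF4.Idx} (h : flat chevF4 k ∈ bsL) : k ∈ Set.range iota := by
  have key : ∀ n ∈ bsL, ∃ a : I8, bsIdx a = n := by decide
  obtain ⟨a, ha⟩ := key _ h
  exact ⟨a, by
    show idx (bsIdx a) = k
    rw [ha, idx_flat]⟩

/-- The block form. -/
def Blk (M : Matrix chevF4.Idx chevF4.Idx (ZMod 2)) : Prop :=
  (∀ k, k ∉ Set.range iota → k ≠ v1 → ∀ b, M k (iota b) = 0) ∧ (∀ k, k ≠ v1 → M k v1 = 0)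

/-- The section. -/
def subM (M : Matrix chevF4.Idx chevF4.Idx (ZMod 2)) : M8 := fun a b => M (iota a) (iota b)

theorem subM_one : subM 1 = 1 := by
  ext a b
  simp [subM, Matrix.one_apply, iota_inj.eq_iff]

theorem subM_mul {M N : Matrix chevF4.Idx chevF4.Idx (ZMod 2)} (hM : Blk M) (hN : Blk N) :
    subM (M * N) = subM M * subM N := by
  ext a b
  simp only [subM, Matrix.mul_apply]
  symm
  apply Fintype.sum_of_injective iota iota_inj
  · intro k hk
    by_cases hk1 : k = v1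
    · subst hk1
      rw [hM.2 _ (iota_ne a), zero_mul]
    · rw [hN.1 k hk hk1 b, mul_zero]
  · intro c
    rfl

theorem Blk_one : Blk 1 := by
  constructor
  · intro k hk _ b
    rw [Matrix.one_apply_ne]
    rintro rfl
    exact hk ⟨b, rfl⟩
  · intro k hk
    rw [Matrix.one_apply_ne hk]

theorem Blk_mul {M N : Matrix chevF4.Idx chevF4.Idx (ZMod 2)} (hM : Blk M) (hN : Blk N) : Blk (M * N) := by
  constructor
  · intro k hk hk1 b
    rw [Matrix.mul_apply]
    apply Finset.sum_eq_zero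
    intro l _
    by_cases hl : l ∈ Set.range iota
    · obtain ⟨c, rfl⟩ := hl
      rw [hM.1 k hk hk1 c, zero_mul]
    · by_cases hl1 : l = v1
      · subst hl1
        rw [hM.2 k hk1, zero_mul]
      · rw [hN.1 l hl hl1 b, mul_zero]
  · intro k hk1
    rw [Matrix.mul_apply]
    apply Finset.sum_eq_zero
    intro l _
    by_cases hl1 : l = v1
    · subst hl1
      rw [hM.2 k hk1, zero_mul]
    · rw [hN.2 l hl1, mul_zero]

/-! ### The generators -/

/-- A bit of a root element. -/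
noncomputable def rbit (r k c : ℕ) : Bool := (lget (wget RL r) k).testBit c

/-- The section of a root element. -/
noncomputable def Amat (r : ℕ) : M8 := Matrix.of fun a b => if rbit r (bsIdx a) (bsIdx b) = true then 1 else 0

/-- The block form of a root element. -/
noncomputable def blkChk (r : ℕ) : Bool :=
  and (allN 52 fun k => or (or (Nat.beq k 1) (bsL.contains k)) (bsL.all fun b => not (rbit r k b)))
    (allN 52 fun k => or (Nat.beq k 1) (not (rbit r k 1)))

theorem blkChk_ok : ∀ r ∈ GensL, blkChk r = true := by decide +kernel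

theorem gens_lt : ∀ r ∈ GensL, r < 48 := by decide

theorem g0_entry {r : ℕ} (hr : r < 48) (a c : chevF4.Idx) :
    ((g0 r).1 : Matrix chevF4.Idx chevF4.Idx (ZMod 2)) a c =
      if rbit r (flat chevF4 a) (flat chevF4 c) = true then 1 else 0 := by
  rw [g0_mat hr, entry hr]
  rfl

theorem subM_g0 {r : ℕ} (hr : r < 48) : subM ((g0 r).1 : Matrix chevF4.Idx chevF4.Idx (ZMod 2)) = Amat r := by
  ext a b
  simp only [subM, g0_entry hr, flat_iota, Amat, Matrix.of_apply]

theorem Blk_g0 {r : ℕ} (hr : r ∈ GensL) : Blk ((g0 r).1 : Matrix chevF4.Idx chevF4.Idx (ZMod 2)) := by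
  have h := blkChk_ok r hr
  simp only [blkChk, Bool.and_eq_true] at h
  have hlt := gens_lt r hr
  constructor
  · intro k hk hk1 b
    rw [g0_entry hlt, flat_iota]
    have h1 := allN_spec h.1 (flat chevF4 k) (flat_lt chevF4 k)
    simp only [Bool.or_eq_true, List.contains_iff_mem] at h1
    rcases h1 with (h1 | h1) | h1
    · exact (hk1 (v1_eq k (Nat.eq_of_beq_eq_true h1))).elim
    · exact (hk (range_of_mem h1)).elim
    · have h2 : ∀ n ∈ bsL, rbit r (flat chevF4 k) n = false := by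
        intro n hn
        have := (List.all_eq_true.mp h1) n hn
        simpa using this
      have h3 : bsIdx b ∈ bsL := by
        revert b
        decide
      rw [h2 _ h3]
      rfl
  · intro k hk
    rw [g0_entry hlt, flat_v1]
    have h1 := allN_spec h.2 (flat chevF4 k) (flat_lt chevF4 k)
    simp only [Bool.or_eq_true, Bool.not_eq_true'] at h1
    rcases h1 with h1 | h1
    · exact (hk (v1_eq k (Nat.eq_of_beq_eq_true h1))).elim
    · rw [h1]
      rfl

theorem Amat_sp : ∀ r ∈ GensL, Amat r ∈ symplecticGroup (Fin 4) (ZMod 2) := by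
  have h : ∀ r ∈ GensL, Amat r * J (Fin 4) (ZMod 2) * (Amat r)ᵀ = J (Fin 4) (ZMod 2) := by decide +kernel
  intro r hr
  exact SymplecticGroup.mem_iff.mpr (h r hr)

theorem Amat_T : Amat 27 = tMat (fun a : I8 => if (1 : ℕ).testBit (code8 a) = true then (1 : ZMod 2) else 0) 1 := by
  decide +kernel

/-- The subgroup generated by the chosen root elements. -/
def LL : Subgroup Q0 := Subgroup.closure (g0 '' {r | r ∈ GensL})

theorem LL_blk : ∀ g ∈ LL, Blk ((g : Q0).1 : Matrix chevF4.Idx chevF4.Idx (ZMod 2)) ∧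
    Blk ((g⁻¹ : Q0).1 : Matrix chevF4.Idx chevF4.Idx (ZMod 2)) := by
  intro g hg
  induction hg using Subgroup.closure_induction with
  | mem x hx =>
    obtain ⟨r, hr, rfl⟩ := hx
    have h1 : (g0 r)⁻¹ = g0 r := inv_eq_of_mul_eq_one_right (hg2 (gens_lt r hr))
    rw [h1]
    exact ⟨Blk_g0 hr, Blk_g0 hr⟩
  | one =>
    rw [inv_one]
    exact ⟨Blk_one, Blk_one⟩
  | mul a b _ _ ha hb =>
    rw [_root_.mul_inv_rev]
    exact ⟨Blk_mul ha.1 hb.1, Blk_mul hb.2 ha.2⟩
  | inv a _ ha =>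
    rw [inv_inv]
    exact ⟨ha.2, ha.1⟩

theorem LL_sp : ∀ g ∈ LL, subM ((g : Q0).1 : Matrix chevF4.Idx chevF4.Idx (ZMod 2)) ∈ symplecticGroup (Fin 4) (ZMod 2) ∧
    subM ((g⁻¹ : Q0).1 : Matrix chevF4.Idx chevF4.Idx (ZMod 2)) ∈ symplecticGroup (Fin 4) (ZMod 2) := by
  intro g hg
  induction hg using Subgroup.closure_induction with
  | mem x hx =>
    obtain ⟨r, hr, rfl⟩ := hx
    have h1 : (g0 r)⁻¹ = g0 r := inv_eq_of_mul_eq_one_right (hg2 (gens_lt r hr))
    rw [h1, subM_g0 (gens_lt r hr)]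
    exact ⟨Amat_sp r hr, Amat_sp r hr⟩
  | one =>
    rw [inv_one]
    have : subM (((1 : Q0)).1 : Matrix chevF4.Idx chevF4.Idx (ZMod 2)) = 1 := subM_one
    rw [this]
    exact ⟨(symplecticGroup (Fin 4) (ZMod 2)).one_mem, (symplecticGroup (Fin 4) (ZMod 2)).one_mem⟩
  | mul a b ha' hb' ha hb =>
    rw [_root_.mul_inv_rev]
    have e1 : subM ((a * b : Q0).1 : Matrix chevF4.Idx chevF4.Idx (ZMod 2)) =
        subM ((a : Q0).1 : Matrix chevF4.Idx chevF4.Idx (ZMod 2)) * subM ((b : Q0).1 : Matrix chevF4.Idx chevF4.Idx (ZMod 2)) :=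
      subM_mul (LL_blk a ha').1 (LL_blk b hb').1
    have e2 : subM ((b⁻¹ * a⁻¹ : Q0).1 : Matrix chevF4.Idx chevF4.Idx (ZMod 2)) =
        subM ((b⁻¹ : Q0).1 : Matrix chevF4.Idx chevF4.Idx (ZMod 2)) * subM ((a⁻¹ : Q0).1 : Matrix chevF4.Idx chevF4.Idx (ZMod 2)) :=
      subM_mul (LL_blk b hb').2 (LL_blk a ha').2
    rw [e1, e2]
    exact ⟨(symplecticGroup (Fin 4) (ZMod 2)).mul_mem ha.1 hb.1, (symplecticGroup (Fin 4) (ZMod 2)).mul_mem hb.2 ha.2⟩
  | inv a _ ha =>
    rw [inv_inv]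
    exact ⟨ha.2, ha.1⟩

/-- The homomorphism to the symplectic group. -/
noncomputable def fS : ↥LL →* Sp (Fin 4) (ZMod 2) where
  toFun g := ⟨subM ((g.1 : Q0).1 : Matrix chevF4.Idx chevF4.Idx (ZMod 2)), (LL_sp g.1 g.2).1⟩
  map_one' := Subtype.ext subM_one
  map_mul' a b := Subtype.ext (subM_mul (LL_blk a.1 a.2).1 (LL_blk b.1 b.2).1)

/-- The vector with a number. -/
def vecN (n : ℕ) : I8 → ZMod 2 := fun a => if n.testBit (code8 a) = true then 1 else 0

/-- The tree of vectors. -/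
noncomputable def treeChk : Bool :=
  allN 256 fun n => or (or (Nat.beq n 0) (Nat.beq n 1))
    (and (decide (Amat (lget gen8 n) *ᵥ vecN n = vecN (lget par8 n)))
      (and (Nat.blt (lget dep8 (lget par8 n)) (lget dep8 n)) (and (GensL.contains (lget gen8 n))
        (and (not (Nat.beq (lget par8 n) 0)) (Nat.blt (lget par8 n) 256)))))

theorem treeChk_ok : treeChk = true := by decide +kernel

theorem mem_LL {r : ℕ} (hr : r ∈ GensL) : g0 r ∈ LL := Subgroup.subset_closure ⟨r, hr, rfl⟩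

theorem fS_g0 {r : ℕ} (hr : r ∈ GensL) : (fS ⟨g0 r, mem_LL hr⟩).1 = Amat r := subM_g0 (gens_lt r hr)

theorem exists_vec : ∀ D n, lget dep8 n = D → n < 256 → n ≠ 0 → ∃ h : ↥LL, fS h • vecN 1 = vecN n := by
  intro D
  induction D using Nat.strong_induction_on with
  | _ D ih =>
    intro n hD hn h0
    by_cases h1 : n = 1
    · subst h1
      exact ⟨1, by rw [map_one, one_smul]⟩
    · have h2 := allN_spec treeChk_ok n hn
      simp only [Bool.or_eq_true, Bool.and_eq_true, decide_eq_true_eq, Bool.not_eq_true'] at h2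
      rcases h2 with (h2 | h2) | ⟨h3, h4, h5, h6, h7⟩
      · exact (h0 (Nat.eq_of_beq_eq_true h2)).elim
      · exact (h1 (Nat.eq_of_beq_eq_true h2)).elim
      · have hr : lget gen8 n ∈ GensL := by simpa using h5
        have hd : lget dep8 (lget par8 n) < lget dep8 n := Nat.le_of_ble_eq_true h4
        have hp0 : lget par8 n ≠ 0 := by
          intro h
          rw [h] at h6
          simp at h6
        obtain ⟨h', hh'⟩ := ih (lget dep8 (lget par8 n)) (by omega) (lget par8 n) rfl (Nat.le_of_ble_eq_true h7) hp0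
        refine ⟨(⟨g0 _, mem_LL hr⟩ : ↥LL)⁻¹ * h', ?_⟩
        rw [map_mul, map_inv, mul_smul, hh', inv_smul_eq_iff, Sp_smul_def, fS_g0 hr]
        exact h3.symm

/-- The inverse of the code. -/
def dec8 (i : Fin 8) : I8 := if h : i.1 < 4 then Sum.inl ⟨i.1, h⟩ else Sum.inr ⟨i.1 - 4, by omega⟩

theorem hc8 : ∀ a : I8, code8 a < 8 := by decide

theorem hdec8 : ∀ a : I8, dec8 ⟨code8 a, hc8 a⟩ = a := by decide

theorem vecN_surj (u : I8 → ZMod 2) : ∃ n, n < 256 ∧ vecN n = u := by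
  refine ⟨Nat.ofBits fun i => decide (u (dec8 i) = 1), Nat.ofBits_lt_two_pow _, ?_⟩
  funext a
  unfold vecN
  rw [Nat.testBit_ofBits_lt _ _ (hc8 a), hdec8 a]
  generalize u a = x
  revert x
  decide

theorem fS_surj : Function.Surjective fS := by
  intro g
  refine T_induction (fun g => ∃ h, fS h = g) ⟨1, map_one _⟩ ?_ ?_ g
  · intro u c
    have hc : c = 0 ∨ c = 1 := by
      revert c
      decide
    rcases hc with rfl | rfl
    · exact ⟨1, by rw [map_one, T_zero_right]⟩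
    · obtain ⟨n, hn, rfl⟩ := vecN_surj u
      by_cases h0 : n = 0
      · subst h0
        have e : vecN 0 = 0 := by
          funext a
          simp [vecN]
        exact ⟨1, by rw [map_one, e, T_zero_left]⟩
      · obtain ⟨h, hh⟩ := exists_vec _ n rfl hn h0
        have hr : (27 : ℕ) ∈ GensL := by decide
        have e1 : fS ⟨g0 27, mem_LL hr⟩ = T (vecN 1) 1 := by
          apply Subtype.ext
          rw [fS_g0 hr, Amat_T]
          rfl
        refine ⟨h * ⟨g0 27, mem_LL hr⟩ * h⁻¹, ?_⟩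
        rw [map_mul, map_mul, map_inv, e1, T_conj, hh]
  · rintro a b ⟨x, rfl⟩ ⟨y, rfl⟩
    exact ⟨x * y, map_mul _ _ _⟩

/-! ### The orders -/

theorem card_Q0 : Nat.card Q0 = 3311126603366400 := by
  have h := OrdF4.card_group (F := ZMod 2) hF0
  rw [ZMod.card] at h
  rw [h]
  norm_num

theorem orbit_eq : MulAction.orbit Q0 (pt 0) = pt '' (↑(Finset.range nP) : Set ℕ) := by
  have hgen' : ∀ g : Q0, (∀ i, i < nP → ∃ i', i' < nP ∧ g • pt i = pt i') ∧
      (∀ i, i < nP → ∃ i', i' < nP ∧ g⁻¹ • pt i = pt i') := by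
    intro g
    have hg : g ∈ Subgroup.closure (g0 '' Set.Iio 48) := by rw [hgen]; exact Subgroup.mem_top _
    induction hg using Subgroup.closure_induction with
    | mem x hx =>
      obtain ⟨r, hr, rfl⟩ := hx
      have hr' : r < 48 := hr
      have h1 : (g0 r)⁻¹ = g0 r := inv_eq_of_mul_eq_one_right (hg2 hr')
      rw [h1]
      have : ∀ i, i < nP → ∃ i', i' < nP ∧ g0 r • pt i = pt i' :=
        fun i hi => ⟨_, hlt r i hi, hact r i hr' hi⟩
      exact ⟨this, this⟩
    | one =>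
      rw [inv_one]
      have : ∀ i, i < nP → ∃ i', i' < nP ∧ (1 : Q0) • pt i = pt i' := fun i hi => ⟨i, hi, one_smul _ _⟩
      exact ⟨this, this⟩
    | mul a b _ _ ha hb =>
      constructor
      · intro i hi
        obtain ⟨i1, h1, h2⟩ := hb.1 i hi
        obtain ⟨i2, h3, h4⟩ := ha.1 i1 h1
        exact ⟨i2, h3, by rw [mul_smul, h2, h4]⟩
      · intro i hi
        obtain ⟨i1, h1, h2⟩ := ha.2 i hi
        obtain ⟨i2, h3, h4⟩ := hb.2 i1 h1
        exact ⟨i2, h3, by rw [_root_.mul_inv_rev, mul_smul, h2, h4]⟩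
    | inv a _ ha =>
      rw [inv_inv]
      exact ⟨ha.2, ha.1⟩
  ext v
  constructor
  · rintro ⟨g, rfl⟩
    obtain ⟨i, hi, h⟩ := (hgen' g).1 0 (by decide)
    exact ⟨i, by simpa using hi, h.symm⟩
  · rintro ⟨i, hi, rfl⟩
    have hi' : i < nP := by simpa using hi
    obtain ⟨q, hq⟩ := exists_q lev _ i (Nat.lt_succ_self _) hi'
    exact ⟨q, hq⟩

/-- The stabiliser. -/
noncomputable abbrev Hb0 : Subgroup Q0 := MulAction.stabilizer Q0 (pt 0)

theorem card_Hb0 : Nat.card ↥Hb0 = 47377612800 := by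
  have h1 := Subgroup.index_mul_card Hb0
  rw [MulAction.index_stabilizer, orbit_eq, Set.ncard_image_of_injOn, Set.ncard_coe_finset, Finset.card_range, card_Q0] at h1
  · have : nP = 69888 := rfl
    rw [this] at h1
    omega
  · intro a ha b hb hab
    exact pt_inj a b (by simpa using ha) (by simpa using hb) hab

theorem card_Sp0 : Nat.card (Sp (Fin 4) (ZMod 2)) = 47377612800 := by
  have h := Cfsg.Agent.Lib.SpOrder.card_Sp (F := ZMod 2) 4
  rw [ZMod.card] at h
  rw [h]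
  simp [Finset.prod_range_succ]

theorem LL_le : LL ≤ Hb0 := by
  rw [LL, Subgroup.closure_le]
  rintro _ ⟨r, hr, rfl⟩
  have hr' : r ∈ GensL := hr
  have key : ∀ r ∈ GensL, (lget FxL r).testBit 0 = true := by decide +kernel
  have hfx := key r hr'
  show g0 r • pt 0 = pt 0
  rw [hact r 0 (gens_lt r hr') (by decide), fixOK r 0 hfx]

theorem LL_eq : LL = Hb0 := by
  haveI : Finite Q0 := Nat.finite_of_card_ne_zero (by rw [card_Q0]; norm_num)
  apply Subgroup.eq_of_le_of_card_ge LL_le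
  rw [card_Hb0, ← card_Sp0]
  exact Nat.card_le_card_of_surjective _ fS_surj

/-- The stabiliser is the symplectic group. -/
noncomputable def eHb : ↥Hb0 ≃* Sp (Fin 4) (ZMod 2) :=
  (MulEquiv.subgroupCongr LL_eq.symm).trans (MulEquiv.ofBijective fS (by
    haveI : Finite Q0 := Nat.finite_of_card_ne_zero (by rw [card_Q0]; norm_num)
    refine fS_surj.bijective_of_nat_card_le ?_
    rw [LL_eq, card_Hb0, card_Sp0]))

/-! ### Transfer -/

/-- The symplectic groups over isomorphic rings. -/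
def spEquiv4 {R S : Type*} [CommRing R] [CommRing S] (e : R ≃+* S) :
    symplecticGroup (Fin 4) R ≃* symplecticGroup (Fin 4) S where
  toFun A := ⟨A.1.map e, SymplecticGroup.map_mem A.2 e⟩
  invFun A := ⟨A.1.map e.symm, SymplecticGroup.map_mem A.2 e.symm⟩
  left_inv A := by
    apply Subtype.ext
    ext i j
    simp
  right_inv A := by
    apply Subtype.ext
    ext i j
    simp
  map_mul' A B := by
    apply Subtype.ext
    exact Matrix.map_mul

/-- The projective symplectic group over a field with two elements. -/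
noncomputable def ePSp {F : Type u} [Field F] [Fintype F] (hF : Fintype.card F = 2) :
    Sp (Fin 4) (ZMod 2) ≃* PSp 4 F := by
  have hp : Nat.Prime 2 := Nat.prime_two
  let e : ZMod 2 ≃+* F := ZMod.ringEquivOfPrime F hp hF
  have hc : Subgroup.center (symplecticGroup (Fin 4) F) = ⊥ := by
    apply Subgroup.eq_bot_of_card_eq
    have h := Cfsg.Agent.Lib.SpCenter.card_center (l := Fin 4) (F := F)
    rw [hF] at h
    exact h
  exact (spEquiv4 e).trans ((QuotientGroup.quotientBot (G := symplecticGroup (Fin 4) F)).symm.trans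
    (QuotientGroup.quotientMulEquivOfEq hc.symm))

/-- The stem extensions of a copy of the symplectic group. -/
theorem ker_dvd_one {F : Type u} [Field F] [Fintype F] (hF : Fintype.card F = 2) {A : Type} [Group A]
    (φ : A ≃* Sp (Fin 4) (ZMod 2)) {Γ' : Type u} [Group Γ'] [Finite Γ'] (σ' : Γ' →* A)
    (hσ' : IsStemExtension σ') : Nat.card σ'.ker ∣ 1 := by
  let Ψ : A ≃* PSp 4 F := φ.trans (ePSp hF)
  let σ'' : Γ' →* PSp 4 F := Ψ.toMonoidHom.comp σ'
  have hker : σ''.ker = σ'.ker := by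
    ext x
    simp [σ'', MonoidHom.mem_ker]
  have hst : IsStemExtension σ'' := by
    refine ⟨Ψ.surjective.comp hσ'.1, ?_, ?_⟩
    · rw [hker]; exact hσ'.2.1
    · rw [hker]; exact hσ'.2.2
  have hM := Cfsg.Agent.Lib.SpSect.multiplier_PSp hF 4 (by norm_num) (by norm_num) (by omega)
  have h1 : Nat.gcd 2 (2 - 1) = 1 := by norm_num
  rw [h1] at hM
  obtain ⟨π, hπ⟩ := hM.2 Γ' σ'' hst
  haveI : Subsingleton (Multiplicative (ZMod 1)) := inferInstanceAs (Subsingleton (ZMod 1))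
  haveI : Subsingleton ↥σ''.ker := hπ.subsingleton
  have h2 : Nat.card ↥σ''.ker = 1 := Nat.card_unique
  have h3 : Nat.card ↥σ'.ker = 1 := by
    rw [← h2, hker]
  rw [h3]

/-- A group with a perfect isomorphic copy. -/
theorem perf_of_equiv {G H : Type*} [Group G] [Group H] (φ : G ≃* H) (h : commutator H = ⊤) : commutator G = ⊤ := by
  rw [eq_top_iff]
  intro x _
  have h1 : φ x ∈ commutator H := by rw [h]; exact Subgroup.mem_top _
  have h2 : (commutator G).map φ.toMonoidHom = commutator H := by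
    rw [commutator_def, Subgroup.map_commutator, Subgroup.map_top_of_surjective _ φ.surjective, commutator_def]
  rw [← h2] at h1
  obtain ⟨y, hy, hyx⟩ := h1
  have : y = x := φ.injective hyx
  rwa [← this]

theorem perf_Sp : commutator (Sp (Fin 4) (ZMod 2)) = ⊤ :=
  Cfsg.Agent.Lib.SpPerfect.commutator_Sp_eq_top 4 (Or.inl (by norm_num))

theorem perf_Hb0 : commutator ↥Hb0 = ⊤ := perf_of_equiv eHb perf_Sp

end Cfsg.Agent.Lib.F4Dat12
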